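import Mathlib
import Cfsg.Agent.Lib.Helper80.MTExist

set_option autoImplicit false
set_option linter.unusedSectionVars false

/-! # Ladder CY2 (S4695, `l(B) = e` for cyclic defect groups): definitions of the abstract part

`Cfg b e`: the local structure at `N = N_G(D₁)`, `D₁ = Ω₁(D)`:
`ee = Br_{D₁}(b)` is a central idempotent of `kN`, relative trace from `D`;
`i` is an idempotent of `kN ee` with `kN i kN ∋ ee` whose corner `i kN i` has the basis
`y ^ a s ^ j` (`a < n`, `j < e`), `y ^ n = 0`, `s ^ e = i`, `s y = chi y s`. -/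

namespace Cfsg.Agent.Lib.Helper19.CY2

open Cfsg.Agent.Lib.Helper80 Cfsg.Agent.Lib.Helper80.GA
open scoped BigOperators

variable {k : Type*} {G : Type*} [Field k] [Group G] [Fintype G]

/-- the local configuration -/
structure Cfg (b : GA k G) (e : ℕ) where
  N : Subgroup G
  D : Subgroup G
  ee : GA k G
  c : GA k G
  TN : Finset G
  i : GA k G
  m : ℕ
  aa : Fin m → GA k G
  bb : Fin m → GA k G
  y : GA k G
  s : GA k G
  chi : k
  n : ℕ
  lam : GA k G
  hDN : D ≤ N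
  ti : ∀ g, g ∉ N → ∀ u ∈ D, g⁻¹ * u * g ∈ D → u = 1
  hb : InZ ⊤ b
  hbb : b * b = b
  hee : InZ N ee
  hee2 : ee * ee = ee
  hTN : ∀ t ∈ TN, t ∈ N
  hTN' : ∀ g ∈ N, ∃! t, t ∈ TN ∧ t⁻¹ * g ∈ D
  hc : FixBy D c
  htr : ∑ t ∈ TN, of t * c * of t⁻¹ = ee
  hi : i * i = i
  hiN : SuppOn N i
  hie : i * ee = i
  hei : ee * i = i
  haa : ∀ j, SuppOn N (aa j)
  hbbN : ∀ j, SuppOn N (bb j)
  hsum : ∑ j, aa j * i * bb j = ee
  hyN : SuppOn N y
  hsN : SuppOn N s
  hiy : i * y = y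
  hyi : y * i = y
  his : i * s = s
  hsi : s * i = s
  hn : 2 ≤ n
  hyn : y ^ n = 0
  he : 0 < e
  hek : (e : k) ≠ 0
  hse : s ^ e = i
  hsy : s * y = chi • (y * s)
  hspan : ∀ r, SuppOn N r → i * r * i ∈
    Submodule.span k (Set.range fun q : Fin n × Fin e => i * y ^ (q.1 : ℕ) * s ^ (q.2 : ℕ))
  hind : LinearIndependent k (fun q : Fin n × Fin e => i * y ^ (q.1 : ℕ) * s ^ (q.2 : ℕ))
  hlam : SuppOn N lam
  hE : i * trunc N b * i = i + y * (i * lam * i)

section modules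

variable {W : Type*} [AddCommGroup W] [Module (GA k G) W] [Module k W]
  [IsScalarTower k (GA k G) W]
variable {W' : Type*} [AddCommGroup W'] [Module (GA k G) W'] [Module k W']
  [IsScalarTower k (GA k G) W']

/-- the trace `Tr_1^N(ρ)` of a linear map -/
noncomputable def trS (N : Subgroup G) (ρ : W →ₗ[k] W') (w : W) : W' := by
  classical
  exact ∑ g ∈ Finset.univ.filter (fun g : G => g ∈ N),
    (of g : GA k G) • ρ ((of g⁻¹ : GA k G) • w)

variable (W) in
/-- `ω` is a label of `W`: an eigenvalue of `s` on `ker y / y ^ (n - 1)` in `i W` -/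
def Lab {b : GA k G} {e : ℕ} (C : Cfg b e) (ω : k) : Prop :=
  ∃ v : W, C.i • v = v ∧ C.y • v = 0 ∧ C.s • v = ω • v ∧ ¬ ∃ w : W, v = C.y ^ (C.n - 1) • w

end modules

/-- the idempotent of `k⟨s⟩` belonging to the eigenvalue `ω` -/
noncomputable def eps {b : GA k G} {e : ℕ} (C : Cfg b e) (ω : k) : GA k G :=
  (e : k)⁻¹ • ∑ j ∈ Finset.range e, (ω⁻¹) ^ j • (C.i * C.s ^ j)

end Cfsg.Agent.Lib.Helper19.CY2
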