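import Mathlib
import Cfsg.Agent.Lib.Helper83.CY2S.Defs
import Cfsg.Agent.Lib.Helper66.Cyc1TRD

set_option autoImplicit false
set_option linter.unusedSectionVars false
set_option linter.unusedVariables false

/-! # Ladder CY2S, rungs COS and TRV -/

namespace Cfsg.Agent.Lib.Helper19.CY2

open Cfsg.Agent.Lib.Helper80 Cfsg.Agent.Lib.Helper80.GA Cfsg.Agent.Lib.Helper83.CY2S
open scoped BigOperators

variable {k : Type*} {G : Type*} [Field k] [Group G] [Fintype G]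
variable {p : ℕ} {b : GA k G} {e : ℕ}

theorem ysa_supp_cj (P : Pre p b e) {g : G} (hg : g ∈ P.N) {a : GA k G} (ha : SuppOn P.C a) :
    SuppOn P.C (cj g a) := by
  refine (ha.cj g).mono ?_
  intro x hx
  have h1 := mem_cS.1 hx
  have h2 := P.hnorm g hg _ h1
  simpa [mul_assoc] using h2

theorem ysa_pow_mem (P : Pre p b e) (j : ℕ) : P.g0 ^ j ∈ P.N :=
  P.N.pow_mem (P.hTN P.hg0) j

/-- powers of an element supported on the coset `C g0` -/
theorem ysa_cos (P : Pre p b e) {s : GA k G} (hs : SuppOn P.C (s * of P.g0⁻¹)) (j : ℕ) :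
    SuppOn P.C (s ^ j * of (P.g0 ^ j)⁻¹) := by
  induction j with
  | zero =>
    rw [pow_zero, pow_zero, inv_one, of_one, mul_one]
    exact SuppOn.one
  | succ j ih =>
    have h1 := ih.mul (ysa_supp_cj P (ysa_pow_mem P j) hs)
    have h2 : s ^ (j + 1) * of (P.g0 ^ (j + 1))⁻¹
        = s ^ j * of (P.g0 ^ j)⁻¹ * cj (P.g0 ^ j) (s * of P.g0⁻¹) := by
      have h3 : (of (P.g0 ^ (j + 1))⁻¹ : GA k G) = of P.g0⁻¹ * of (P.g0 ^ j)⁻¹ := by
        rw [of_mul_of, pow_succ, mul_inv_rev]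
      rw [h3, cj, pow_succ]
      simp only [mul_assoc]
      rw [← mul_assoc (of (P.g0 ^ j)⁻¹) (of (P.g0 ^ j)), of_inv_mul_of, one_mul]
    rw [h2]
    exact h1

theorem cos0 (P : Pre p b e) (Y : YS P) (j : ℕ) : SuppOn P.C (Y.s ^ j * of (P.g0 ^ j)⁻¹) :=
  ysa_cos P Y.hsC j

theorem trv0 (P : Pre p b e) : ∃ R : Finset G, (∀ t ∈ R, t ∈ P.N) ∧
    ∀ g ∈ P.N, ∃! t, t ∈ R ∧ t⁻¹ * g ∈ P.T1 := by
  classical
  obtain ⟨T, hT⟩ := Cfsg.Agent.Lib.Helper66.Cyc1.exists_transversal P.T1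
  refine ⟨T.filter (· ∈ P.N), fun t ht => (Finset.mem_filter.1 ht).2, fun g hg => ?_⟩
  obtain ⟨t, ⟨ht, htg⟩, huniq⟩ := hT g
  refine ⟨t, ⟨Finset.mem_filter.2 ⟨ht, ?_⟩, htg⟩, fun t' ht' =>
    huniq t' ⟨(Finset.mem_filter.1 ht'.1).1, ht'.2⟩⟩
  have h1 := P.N.mul_mem hg (P.N.inv_mem (P.hTN htg))
  simpa using h1

end Cfsg.Agent.Lib.Helper19.CY2
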