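import Mathlib
import Cfsg.Agent.Lib.Helper83.CY2S.Defs
import Cfsg.Agent.Lib.Helper19.CY2.COS

set_option autoImplicit false
set_option linter.unusedSectionVars false
set_option linter.unusedVariables false

/-! # Ladder CY2S, rungs EEZ, EEI, EES -/

namespace Cfsg.Agent.Lib.Helper19.CY2

open Cfsg.Agent.Lib.Helper80 Cfsg.Agent.Lib.Helper80.GA Cfsg.Agent.Lib.Helper83.CY2S
open scoped BigOperators

variable {k : Type*} {G : Type*} [Field k] [Group G] [Fintype G]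
variable {p : ℕ} {b : GA k G} {e : ℕ}

theorem eei_uniq (P : Pre p b e) (R : Finset G)
    (hR : ∀ t ∈ R, t ∈ P.N) (hR' : ∀ g ∈ P.N, ∃! t, t ∈ R ∧ t⁻¹ * g ∈ P.T1) {t t' : G}
    (ht : t ∈ R) (ht' : t' ∈ R) (h : t⁻¹ * t' ∈ P.T1) : t = t' := by
  obtain ⟨r, -, hu⟩ := hR' t' (hR t' ht')
  rw [hu t ⟨ht, h⟩, hu t' ⟨ht', by rw [inv_mul_cancel]; exact P.T1.one_mem⟩]

theorem eei_orth (P : Pre p b e) (R : Finset G)
    (hR : ∀ t ∈ R, t ∈ P.N) (hR' : ∀ g ∈ P.N, ∃! t, t ∈ R ∧ t⁻¹ * g ∈ P.T1) {t t' : G}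
    (ht : t ∈ R) (ht' : t' ∈ R) (hne : t ≠ t') : cj t P.e1 * cj t' P.e1 = 0 := by
  have h1 : cj t' P.e1 = cj t (cj (t⁻¹ * t') P.e1) := by
    rw [cj_cj, mul_inv_cancel_left]
  rw [h1, ← cj_mul, P.horth _ (P.N.mul_mem (P.N.inv_mem (hR t ht)) (hR t' ht'))
    (fun h => hne (eei_uniq P R hR hR' ht ht' h)), cj_zero]

theorem eei_e1i (P : Pre p b e) : P.e1 * P.i = P.i := by
  rw [← commute_of_suppOn_fixBy P.hiC P.he1.2, P.hie]

theorem eei0 (P : Pre p b e) (R : Finset G) (hR : ∀ t ∈ R, t ∈ P.N)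
    (hR' : ∀ g ∈ P.N, ∃! t, t ∈ R ∧ t⁻¹ * g ∈ P.T1) :
    (∑ t ∈ R, cj t P.e1) * (∑ t ∈ R, cj t P.e1) = ∑ t ∈ R, cj t P.e1 ∧
    P.i * (∑ t ∈ R, cj t P.e1) = P.i ∧ (∑ t ∈ R, cj t P.e1) * P.i = P.i := by
  classical
  obtain ⟨t0, ⟨ht0, ht0T⟩, hu0⟩ := hR' 1 P.N.one_mem
  have ht0T' : t0 ∈ P.T1 := by
    have := P.T1.inv_mem ht0T
    simpa using this
  have hnot : ∀ t ∈ R, t ≠ t0 → t ∉ P.T1 := by
    intro t ht hne hT
    exact hne (hu0 t ⟨ht, by rw [mul_one]; exact P.T1.inv_mem hT⟩)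
  refine ⟨?_, ?_, ?_⟩
  · rw [Finset.sum_mul]
    refine Finset.sum_congr rfl fun t ht => ?_
    rw [Finset.mul_sum, Finset.sum_eq_single t]
    · rw [← cj_mul, P.he1i]
    · intro t' ht' hne
      exact eei_orth P R hR hR' ht ht' hne.symm
    · intro h; exact absurd ht h
  · rw [Finset.mul_sum, Finset.sum_eq_single t0]
    · rw [P.hT1 t0 ht0T', P.hie]
    · intro t ht hne
      rw [← P.hie, mul_assoc, P.horth t (hR t ht) (hnot t ht hne), mul_zero]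
    · intro h; exact absurd ht0 h
  · rw [Finset.sum_mul, Finset.sum_eq_single t0]
    · rw [P.hT1 t0 ht0T', eei_e1i]
    · intro t ht hne
      have h1 : cj t P.e1 * P.e1 = cj t (P.e1 * cj t⁻¹ P.e1) := by
        rw [cj_mul, cj_cj_inv]
      rw [← eei_e1i P, ← mul_assoc, h1, P.horth t⁻¹ (P.N.inv_mem (hR t ht))
        (fun h => hnot t ht hne (by simpa using P.T1.inv_mem h)), cj_zero, zero_mul]
    · intro h; exact absurd ht0 h

theorem eez0 (P : Pre p b e) (R : Finset G) (hR : ∀ t ∈ R, t ∈ P.N)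
    (hR' : ∀ g ∈ P.N, ∃! t, t ∈ R ∧ t⁻¹ * g ∈ P.T1) : InZ P.N (∑ t ∈ R, cj t P.e1) := by
  classical
  refine ⟨SuppOn.sum _ _ fun t ht =>
    (ysa_supp_cj P (hR t ht) P.he1.1).mono (P.hCT.trans P.hTN), ?_⟩
  intro x hx
  rw [cj_sum]
  simp only [cj_cj]
  have hmem : ∀ t ∈ R, x * t ∈ P.N := fun t ht => P.N.mul_mem hx (hR t ht)
  -- the representative of `x * t`
  let σ : G → G := fun t => if h : x * t ∈ P.N then (hR' (x * t) h).choose else t
  have hσ : ∀ t ∈ R, σ t ∈ R ∧ (σ t)⁻¹ * (x * t) ∈ P.T1 := by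
    intro t ht
    simp only [σ, dif_pos (hmem t ht)]
    exact (hR' (x * t) (hmem t ht)).choose_spec.1
  have hcj : ∀ t ∈ R, cj (x * t) P.e1 = cj (σ t) P.e1 := by
    intro t ht
    have h1 : x * t = σ t * ((σ t)⁻¹ * (x * t)) := by rw [mul_inv_cancel_left]
    rw [h1, ← cj_cj, P.hT1 _ (hσ t ht).2]
  have hinj : Set.InjOn σ R := by
    intro t ht t' ht' hEq
    have h1 := (hσ t ht).2
    have h2 := (hσ t' ht').2
    rw [← hEq] at h2
    have h3 := P.T1.mul_mem (P.T1.inv_mem h1) h2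
    have h4 : ((σ t)⁻¹ * (x * t))⁻¹ * ((σ t)⁻¹ * (x * t')) = t⁻¹ * t' := by group
    rw [h4] at h3
    exact eei_uniq P R hR hR' ht ht' h3
  have himg : R.image σ = R := by
    apply Finset.eq_of_subset_of_card_le
    · intro u hu
      obtain ⟨t, ht, rfl⟩ := Finset.mem_image.1 hu
      exact (hσ t ht).1
    · rw [Finset.card_image_of_injOn hinj]
  rw [Finset.sum_congr rfl hcj]
  conv_rhs => rw [← himg]
  rw [Finset.sum_image hinj]

theorem ees0 (P : Pre p b e) (R : Finset G) (hR : ∀ t ∈ R, t ∈ P.N) :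
    ∃ (m : ℕ) (aa bb : Fin m → GA k G), (∀ j, SuppOn P.N (aa j)) ∧ (∀ j, SuppOn P.N (bb j)) ∧
      ∑ j, aa j * P.i * bb j = ∑ t ∈ R, cj t P.e1 := by
  classical
  have hCN : P.C ≤ P.N := P.hCT.trans P.hTN
  refine ⟨R.card * P.m,
    fun q => of ((R.equivFin.symm (finProdFinEquiv.symm q).1 : R) : G) * P.xx (finProdFinEquiv.symm q).2,
    fun q => P.yy (finProdFinEquiv.symm q).2 * of ((R.equivFin.symm (finProdFinEquiv.symm q).1 : R) : G)⁻¹,
    ?_, ?_, ?_⟩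
  · intro q
    exact (SuppOn.of (hR _ (R.equivFin.symm (finProdFinEquiv.symm q).1).2)).mul ((P.hxx _).mono hCN)
  · intro q
    exact ((P.hyy _).mono hCN).mul
      (SuppOn.of (P.N.inv_mem (hR _ (R.equivFin.symm (finProdFinEquiv.symm q).1).2)))
  · rw [Equiv.sum_comp finProdFinEquiv.symm
      (fun q : Fin R.card × Fin P.m => of ((R.equivFin.symm q.1 : R) : G) * P.xx q.2 * P.i *
        (P.yy q.2 * of ((R.equivFin.symm q.1 : R) : G)⁻¹)), Fintype.sum_prod_type]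
    rw [Equiv.sum_comp R.equivFin.symm
      (fun t : R => ∑ j : Fin P.m, of (t : G) * P.xx j * P.i * (P.yy j * of (t : G)⁻¹)),
      Finset.sum_coe_sort R
      (fun t : G => ∑ j : Fin P.m, of t * P.xx j * P.i * (P.yy j * of t⁻¹))]
    refine Finset.sum_congr rfl fun t _ => ?_
    rw [cj, ← P.hsum, Finset.mul_sum, Finset.sum_mul]
    refine Finset.sum_congr rfl fun j _ => ?_
    simp only [mul_assoc]

end Cfsg.Agent.Lib.Helper19.CY2
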