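import Mathlib
import Cfsg.Agent.Lib.Helper83.CY2S.Defs
import Cfsg.Agent.Lib.Helper19.CY2.COS

set_option autoImplicit false
set_option linter.unusedSectionVars false
set_option linter.unusedVariables false

namespace Cfsg.Agent.Lib.Helper19.CY2

open Cfsg.Agent.Lib.Helper80 Cfsg.Agent.Lib.Helper80.GA Cfsg.Agent.Lib.Helper83.CY2S
open scoped BigOperators

variable {k : Type*} {G : Type*} [Field k] [Group G] [Fintype G]
variable {p : ℕ} {b : GA k G} {e : ℕ}

theorem span_CN (P : Pre p b e) : P.C ≤ P.N := P.hCT.trans P.hTN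

/-- `s ^ j` is supported on `N`. -/
theorem span_s_pow (P : Pre p b e) (Y : YS P) (j : ℕ) : SuppOn P.N (Y.s ^ j) := by
  have h1 : Y.s ^ j = (Y.s ^ j * of (P.g0 ^ j)⁻¹) * of (P.g0 ^ j) := by
    rw [mul_assoc, of_inv_mul_of, mul_one]
  rw [h1]
  exact ((cos0 P Y j).mono (span_CN P)).mul (SuppOn.of (ysa_pow_mem P j))

theorem span_comm_y (P : Pre p b e) (Y : YS P) (a : ℕ) : Y.y ^ a * P.i = P.i * Y.y ^ a := by
  have h : Commute Y.y P.i := by
    show Y.y * P.i = P.i * Y.y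
    rw [Y.hyi, Y.hiy]
  exact (h.pow_left a)

theorem span_comm_s (P : Pre p b e) (Y : YS P) (a : ℕ) : Y.s ^ a * P.i = P.i * Y.s ^ a := by
  have h : Commute Y.s P.i := by
    show Y.s * P.i = P.i * Y.s
    rw [Y.hsi, Y.his]
  exact (h.pow_left a)

theorem span_ei (P : Pre p b e) : P.e1 * P.i = P.i := by
  rw [← commute_of_suppOn_fixBy P.hiC P.he1.2, P.hie]

theorem span_of_mul (g : G) (a : GA k G) : of g * a = cj g a * of g := by
  unfold cj
  rw [mul_assoc, of_inv_mul_of, mul_one]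

/-- the case `g ∉ T1`. -/
theorem span_zero (P : Pre p b e) {g : G} (hg : g ∈ P.N) (hgT : g ∉ P.T1) :
    P.i * of g * P.i = 0 := by
  calc P.i * of g * P.i = (P.i * P.e1) * of g * (P.e1 * P.i) := by rw [P.hie, span_ei]
    _ = P.i * (P.e1 * (of g * P.e1)) * P.i := by simp only [mul_assoc]
    _ = P.i * (P.e1 * (cj g P.e1 * of g)) * P.i := by rw [span_of_mul]
    _ = P.i * ((P.e1 * cj g P.e1) * of g) * P.i := by simp only [mul_assoc]
    _ = 0 := by rw [P.horth g hg hgT]; simp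

/-- the case `g ∈ T1`. -/
theorem span_T1 (P : Pre p b e) (Y : YS P) {g : G} (hg : g ∈ P.T1) :
    ∃ j < e, ∃ w, SuppOn P.C w ∧ P.i * of g * P.i = (P.i * w * P.i) * Y.s ^ j := by
  obtain ⟨j, hj, hx⟩ := P.hcos g hg
  refine ⟨j, hj, of g * Y.s ^ (e - j), ?_, ?_⟩
  · set u := Y.s ^ (e - j) * of (P.g0 ^ (e - j))⁻¹ with hu
    have hu' : SuppOn P.C u := cos0 P Y (e - j)
    have h1 : Y.s ^ (e - j) = u * of (P.g0 ^ (e - j)) := by
      rw [hu, mul_assoc, of_inv_mul_of, mul_one]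
    have h2 : (of g : GA k G) = of (g * (P.g0 ^ j)⁻¹) * of (P.g0 ^ j) := by
      rw [of_mul_of, inv_mul_cancel_right]
    have h3 : of g * Y.s ^ (e - j) =
        of (g * (P.g0 ^ j)⁻¹) * cj (P.g0 ^ j) u * of (P.g0 ^ e) := by
      have h4 : (of (P.g0 ^ e) : GA k G) = of (P.g0 ^ j) * of (P.g0 ^ (e - j)) := by
        rw [of_mul_of, ← pow_add]
        congr 2
        omega
      rw [h1, h2, h4]
      calc of (g * (P.g0 ^ j)⁻¹) * of (P.g0 ^ j) * (u * of (P.g0 ^ (e - j)))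
          = of (g * (P.g0 ^ j)⁻¹) * (of (P.g0 ^ j) * u) * of (P.g0 ^ (e - j)) := by
            simp only [mul_assoc]
        _ = of (g * (P.g0 ^ j)⁻¹) * (cj (P.g0 ^ j) u * of (P.g0 ^ j)) * of (P.g0 ^ (e - j)) := by
            rw [span_of_mul (P.g0 ^ j) u]
        _ = _ := by simp only [mul_assoc]
    rw [h3]
    exact ((SuppOn.of hx).mul (ysa_supp_cj P (ysa_pow_mem P j) hu')).mul (SuppOn.of P.hg0e)
  · have h1 : Y.s ^ (e - j) * Y.s ^ j = P.i := by
      rw [← pow_add, ← Y.hse]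
      congr 1
      omega
    have h2 : Y.s ^ (e - j) * P.i = Y.s ^ (e - j) := by
      obtain ⟨m, hm⟩ : ∃ m, e - j = m + 1 := ⟨e - j - 1, by omega⟩
      rw [hm, pow_succ, mul_assoc, Y.hsi]
    calc P.i * of g * P.i = P.i * of g * (Y.s ^ (e - j) * Y.s ^ j) := by rw [h1]
      _ = P.i * of g * ((Y.s ^ (e - j) * P.i) * Y.s ^ j) := by rw [h2]
      _ = _ := by simp only [mul_assoc]

/-- SPAN. -/
theorem span0 (P : Pre p b e) (Y : YS P) : ∀ r, SuppOn P.N r → P.i * r * P.i ∈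
    Submodule.span k (Set.range fun q : Fin Y.n × Fin e =>
      P.i * Y.y ^ (q.1 : ℕ) * Y.s ^ (q.2 : ℕ)) := by
  intro r hr
  set Λ := Submodule.span k (Set.range fun q : Fin Y.n × Fin e =>
      P.i * Y.y ^ (q.1 : ℕ) * Y.s ^ (q.2 : ℕ)) with hΛ
  have h1 : P.i * r * P.i = ∑ g, r g • (P.i * of g * P.i) := by
    conv_lhs => rw [eq_sum_of r]
    rw [Finset.mul_sum, Finset.sum_mul]
    refine Finset.sum_congr rfl (fun g _ => ?_)
    rw [mul_smul_comm, smul_mul_assoc]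
  rw [h1]
  refine Submodule.sum_mem _ (fun g _ => ?_)
  by_cases hg : g ∈ P.N
  · apply Submodule.smul_mem
    by_cases hgT : g ∈ P.T1
    · obtain ⟨j, hj, w, hw, heq⟩ := span_T1 P Y hgT
      rw [heq]
      have h2 := Y.hsp w hw
      have h3 : Submodule.span k (Set.range fun a : Fin Y.n => P.i * Y.y ^ (a : ℕ)) ≤
          Λ.comap (LinearMap.mulRight k (Y.s ^ j)) := by
        apply Submodule.span_le.mpr
        rintro _ ⟨a, rfl⟩
        show P.i * Y.y ^ (a : ℕ) * Y.s ^ j ∈ Λ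
        exact Submodule.subset_span ⟨(a, ⟨j, hj⟩), rfl⟩
      exact h3 h2
    · rw [span_zero P hg hgT]
      exact Submodule.zero_mem _
  · rw [hr g hg, zero_smul]
    exact Submodule.zero_mem _

end Cfsg.Agent.Lib.Helper19.CY2
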