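import Mathlib
import Cfsg.Agent.Lib.Helper83.CY2S.Defs
import Cfsg.Agent.Lib.Helper19.CY2.SPAN

set_option autoImplicit false
set_option linter.unusedSectionVars false
set_option linter.unusedVariables false

namespace Cfsg.Agent.Lib.Helper19.CY2

open Cfsg.Agent.Lib.Helper80 Cfsg.Agent.Lib.Helper80.GA Cfsg.Agent.Lib.Helper83.CY2S
open scoped BigOperators

variable {k : Type*} {G : Type*} [Field k] [Group G] [Fintype G]
variable {p : ℕ} {b : GA k G} {e : ℕ}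

theorem idl_sy (P : Pre p b e) (Y : YS P) (j : ℕ) :
    Y.s ^ j * Y.y = Y.chi ^ j • (Y.y * Y.s ^ j) := by
  induction j with
  | zero => simp
  | succ j ih =>
    calc Y.s ^ (j + 1) * Y.y = Y.s ^ j * (Y.s * Y.y) := by rw [pow_succ, mul_assoc]
      _ = Y.s ^ j * (Y.chi • (Y.y * Y.s)) := by rw [Y.hsy]
      _ = Y.chi • ((Y.s ^ j * Y.y) * Y.s) := by rw [mul_smul_comm, mul_assoc]
      _ = Y.chi • ((Y.chi ^ j • (Y.y * Y.s ^ j)) * Y.s) := by rw [ih]
      _ = Y.chi ^ (j + 1) • (Y.y * Y.s ^ (j + 1)) := by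
        rw [smul_mul_assoc, smul_smul, mul_assoc, ← pow_succ, ← pow_succ']

/-- moving `y` from the right to the left of an element of the corner. -/
theorem idl_move (P : Pre p b e) (Y : YS P) (v : GA k G)
    (hv : v ∈ Submodule.span k (Set.range fun q : Fin Y.n × Fin e =>
      P.i * Y.y ^ (q.1 : ℕ) * Y.s ^ (q.2 : ℕ))) :
    ∃ l, SuppOn P.N l ∧ v * Y.y = Y.y * (P.i * l * P.i) := by
  induction hv using Submodule.span_induction with
  | mem v hv =>
    obtain ⟨⟨a, j⟩, rfl⟩ := hv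
    refine ⟨Y.chi ^ (j : ℕ) • (P.i * Y.y ^ (a : ℕ) * Y.s ^ (j : ℕ)), ?_, ?_⟩
    · apply SuppOn.smul
      exact ((P.hiC.mono (span_CN P)).mul ((Y.hyC.pow _).mono (span_CN P))).mul (span_s_pow P Y _)
    · show P.i * Y.y ^ (a : ℕ) * Y.s ^ (j : ℕ) * Y.y = _
      have h1 : P.i * (Y.chi ^ (j : ℕ) • (P.i * Y.y ^ (a : ℕ) * Y.s ^ (j : ℕ))) * P.i =
          Y.chi ^ (j : ℕ) • (P.i * Y.y ^ (a : ℕ) * Y.s ^ (j : ℕ)) := by
        rw [mul_smul_comm, smul_mul_assoc]
        congr 1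
        calc P.i * (P.i * Y.y ^ (a : ℕ) * Y.s ^ (j : ℕ)) * P.i
            = (P.i * P.i) * Y.y ^ (a : ℕ) * (Y.s ^ (j : ℕ) * P.i) := by simp only [mul_assoc]
          _ = P.i * Y.y ^ (a : ℕ) * (P.i * Y.s ^ (j : ℕ)) := by rw [P.hi, span_comm_s]
          _ = P.i * (Y.y ^ (a : ℕ) * P.i) * Y.s ^ (j : ℕ) := by simp only [mul_assoc]
          _ = (P.i * P.i) * Y.y ^ (a : ℕ) * Y.s ^ (j : ℕ) := by
            rw [span_comm_y]; simp only [mul_assoc]
          _ = _ := by rw [P.hi]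
      rw [h1, mul_smul_comm]
      calc P.i * Y.y ^ (a : ℕ) * Y.s ^ (j : ℕ) * Y.y
          = P.i * Y.y ^ (a : ℕ) * (Y.s ^ (j : ℕ) * Y.y) := by rw [mul_assoc]
        _ = P.i * Y.y ^ (a : ℕ) * (Y.chi ^ (j : ℕ) • (Y.y * Y.s ^ (j : ℕ))) := by rw [idl_sy]
        _ = Y.chi ^ (j : ℕ) • ((P.i * (Y.y ^ (a : ℕ) * Y.y)) * Y.s ^ (j : ℕ)) := by
          rw [mul_smul_comm]; simp only [mul_assoc]
        _ = Y.chi ^ (j : ℕ) • (((P.i * Y.y) * Y.y ^ (a : ℕ)) * Y.s ^ (j : ℕ)) := by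
          rw [← pow_succ, pow_succ']; simp only [mul_assoc]
        _ = Y.chi ^ (j : ℕ) • (((Y.y * P.i) * Y.y ^ (a : ℕ)) * Y.s ^ (j : ℕ)) := by
          rw [Y.hiy, Y.hyi]
        _ = _ := by simp only [mul_assoc]
  | zero => exact ⟨0, SuppOn.zero, by simp⟩
  | add u v _ _ hu hv =>
    obtain ⟨l1, hl1, h1⟩ := hu
    obtain ⟨l2, hl2, h2⟩ := hv
    refine ⟨l1 + l2, hl1.add hl2, ?_⟩
    rw [add_mul, h1, h2, mul_add, add_mul, mul_add]
  | smul c v _ hv =>
    obtain ⟨l1, hl1, h1⟩ := hv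
    refine ⟨c • l1, hl1.smul c, ?_⟩
    rw [smul_mul_assoc, h1, mul_smul_comm, smul_mul_assoc, mul_smul_comm]

/-- IDL (used by HE). -/
theorem idl0 (P : Pre p b e) (Y : YS P) (x r r' : GA k G) (hx : SuppOn P.N x)
    (hr : SuppOn P.C r) (hr' : SuppOn P.C r') :
    ∃ l, SuppOn P.N l ∧ (P.i + Y.y * (P.i * r * P.i)) * (P.i * x * P.i) * (P.i + Y.y * (P.i * r' * P.i))
      - P.i * x * P.i = Y.y * (P.i * l * P.i) := by
  obtain ⟨l', hl', hmove⟩ := idl_move P Y _ (span0 P Y x hx)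
  have hiN : SuppOn P.N P.i := P.hiC.mono (span_CN P)
  have hyN : SuppOn P.N Y.y := Y.hyC.mono (span_CN P)
  have hrN : SuppOn P.N r := hr.mono (span_CN P)
  have hr'N : SuppOn P.N r' := hr'.mono (span_CN P)
  refine ⟨l' * P.i * r' + r * P.i * x + r * P.i * Y.y * P.i * l' * P.i * r', ?_, ?_⟩
  · refine SuppOn.add (SuppOn.add ?_ ?_) ?_
    · exact (hl'.mul hiN).mul hr'N
    · exact (hrN.mul hiN).mul hx
    · exact (((((hrN.mul hiN).mul hyN).mul hiN).mul hl').mul hiN).mul hr'N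
  · set X := P.i * x * P.i with hX
    set R := P.i * r * P.i with hR
    set R' := P.i * r' * P.i with hR'
    set L := P.i * l' * P.i with hL
    have hii : ∀ z : GA k G, P.i * (P.i * z) = P.i * z := fun z => by rw [← mul_assoc, P.hi]
    have hiX : P.i * X = X := by rw [hX]; simp only [mul_assoc, hii]
    have hXi : X * P.i = X := by rw [hX]; simp only [mul_assoc, P.hi]
    have e1 : (P.i + Y.y * R) * X * (P.i + Y.y * R') - X =
        (X * Y.y) * R' + Y.y * (R * X) + Y.y * (R * ((X * Y.y) * R')) := by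
      have : (P.i + Y.y * R) * X * (P.i + Y.y * R') =
          (P.i * X) * P.i + (P.i * X) * Y.y * R' + Y.y * (R * (X * P.i)) +
            Y.y * (R * ((X * Y.y) * R')) := by
        simp only [add_mul, mul_add, mul_assoc]
        abel
      rw [this, hiX, hXi]
      abel
    rw [e1, hmove]
    have e2 : P.i * (l' * P.i * r' + r * P.i * x + r * P.i * Y.y * P.i * l' * P.i * r') * P.i =
        L * R' + R * X + R * (Y.y * L * R') := by
      rw [hL, hR', hR, hX]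
      simp only [add_mul, mul_add, mul_assoc, hii]
    rw [e2]
    simp only [mul_add, mul_assoc]

end Cfsg.Agent.Lib.Helper19.CY2
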