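import Mathlib
import Cfsg.Agent.Lib.Helper83.CY2S.Defs
import Cfsg.Agent.Lib.Helper83.CY2S.L0

set_option autoImplicit false
set_option linter.unusedSectionVars false
set_option linter.unusedVariables false

/-! Ladder CY2S wave 2, rung ZI (helper98). -/

namespace Cfsg.Agent.Lib.Helper19.CY2

open Cfsg.Agent.Lib.Helper80 Cfsg.Agent.Lib.Helper80.GA Cfsg.Agent.Lib.Helper83.CY2S
open scoped BigOperators

variable {k : Type*} {G : Type*} [Field k] [Group G] [Fintype G]
variable {p : ℕ} {b : GA k G} {e : ℕ}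

/-- abstract core: `ζ = c • i + ν`, `ν` nilpotent in the corner, `ζ ^ p = i` forces `c = 1`. -/
theorem zi_abs [Fact p.Prime] [CharP k p] {Λ : Type*} [Ring Λ] [Algebra k Λ] {i ν : Λ} {c : k}
    (hi : i * i = i) (hi0 : i ≠ 0) (hiν : i * ν = ν) (hνi : ν * i = ν) (hnil : IsNilpotent ν)
    (hp : (c • i + ν) ^ p = i) : c = 1 := by
  have hpp : p.Prime := Fact.out
  have hnt : Nontrivial Λ := ⟨⟨i, 0, hi0⟩⟩
  have hchar : CharP Λ p := charP_of_injective_algebraMap (algebraMap k Λ).injective p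
  have hipow : ∀ n : ℕ, 0 < n → i ^ n = i := by
    intro n hn
    induction n with
    | zero => exact absurd hn (lt_irrefl 0)
    | succ n ih =>
      rcases Nat.eq_zero_or_pos n with rfl | h
      · rw [zero_add, pow_one]
      · rw [pow_succ, ih h, hi]
  have hcomm : Commute (c • i) ν := by
    change c • i * ν = ν * c • i
    rw [smul_mul_assoc, mul_smul_comm, hiν, hνi]
  rw [add_pow_char_of_commute p hcomm, smul_pow, hipow p hpp.pos] at hp
  have h1 : (1 - c ^ p) • i = ν ^ p := by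
    rw [sub_smul, one_smul]
    nth_rewrite 1 [← hp]
    abel
  have h2 : c ^ p = 1 := by
    by_contra hne
    have hne' : 1 - c ^ p ≠ 0 := sub_ne_zero.mpr (Ne.symm hne)
    have h3 : i = (1 - c ^ p)⁻¹ • ν ^ p := by
      rw [← h1, smul_smul, inv_mul_cancel₀ hne', one_smul]
    obtain ⟨M, hM⟩ := hnil
    have h4 : i ^ (M + 1) = 0 := by
      have h6 : (ν ^ p) ^ (M + 1) = 0 := by
        rw [← pow_mul]
        exact pow_eq_zero_of_le (by nlinarith [hpp.pos]) hM
      rw [h3, smul_pow, h6, smul_zero]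
    rw [hipow _ (Nat.succ_pos M)] at h4
    exact hi0 h4
  have h5 : (c - 1) ^ p = 0 := by
    rw [sub_pow_char, h2, one_pow, sub_self]
  exact sub_eq_zero.mp (pow_eq_zero_iff hpp.pos.ne' |>.mp h5)

theorem zi_supp {C : Subgroup G} {i y r : GA k G} (hiC : SuppOn C i) (hyC : SuppOn C y)
    (hr : r ∈ L0 k i y) : SuppOn C r := by
  induction hr using Submodule.span_induction with
  | mem x hx =>
    obtain ⟨a, rfl⟩ := hx
    exact hiC.mul (hyC.pow a)
  | zero => exact SuppOn.zero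
  | add x y _ _ hx hy => exact hx.add hy
  | smul c x _ hx => exact hx.smul c

theorem zi_gen [Fact p.Prime] [CharP k p] (P : Pre p b e) (y : GA k G) (hiy : P.i * y = y)
    (hyi : y * P.i = y) (hnil : IsNilpotent y) (x : G) (hxc : ∀ g ∈ P.C, g * x = x * g)
    (hxp : x ^ p = 1) (hmem : P.i * of x * P.i ∈ L0 k P.i y) :
    ∃ r ∈ L0 k P.i y, of x * P.i = P.i + y * r := by
  have hpp : p.Prime := Fact.out
  have hfix : FixBy P.C (of x : GA k G) := by
    intro g hg
    unfold cj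
    rw [of_mul_of, of_mul_of, hxc g hg, mul_inv_cancel_right]
  have hcomm : P.i * of x = of x * P.i := commute_of_suppOn_fixBy P.hiC hfix
  have h1 : P.i * of x * P.i = of x * P.i := by
    rw [hcomm, mul_assoc, P.hi]
  obtain ⟨c, r, hr, hdec⟩ := l0_decomp P.hi hiy hyi hmem
  have hyr : y * r ∈ L0 k P.i y := l0_mul P.hi hiy hyi (l0_y_mem hiy) hr
  have hipow : P.i ^ p = P.i := by
    have : ∀ n : ℕ, 0 < n → P.i ^ n = P.i := by
      intro n hn
      induction n with
      | zero => exact absurd hn (lt_irrefl 0)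
      | succ n ih =>
        rcases Nat.eq_zero_or_pos n with rfl | h
        · rw [zero_add, pow_one]
        · rw [pow_succ, ih h, P.hi]
    exact this p hpp.pos
  have hpow : (c • P.i + y * r) ^ p = P.i := by
    rw [← hdec, h1, (show Commute (of x : GA k G) P.i from hcomm.symm).mul_pow, of_pow, hxp, of_one,
      one_mul, hipow]
  have hc := zi_abs P.hi P.hi0 (l0_left P.hi hyr) (l0_right P.hi hiy hyi hyr)
    (l0_nil P.hi hiy hyi hnil hr) hpow
  refine ⟨r, hr, ?_⟩
  rw [← h1, hdec, hc, one_smul]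

theorem zi0 [Fact p.Prime] [CharP k p] (P : Pre p b e) :
    ∃ r ∈ L0 k P.i P.y0, of P.z * P.i = P.i + P.y0 * r := by
  have hzC : P.z ∈ P.C := (P.hC P.z).mpr rfl
  exact zi_gen P P.y0 P.hiy P.hyi P.hnil P.z (fun g hg => ((P.hC g).mp hg).symm) P.hzp
    (P.hspan _ (SuppOn.of hzC))

theorem zi1 [Fact p.Prime] [CharP k p] (P : Pre p b e) (Y : YS P) (x : G)
    (hx : x ∈ Subgroup.zpowers P.z) :
    ∃ r, SuppOn P.C r ∧ of x * P.i = P.i + Y.y * (P.i * r * P.i) := by
  obtain ⟨j, rfl⟩ := hx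
  change ∃ r, SuppOn P.C r ∧ of (P.z ^ j) * P.i = P.i + Y.y * (P.i * r * P.i)
  have hxc : ∀ g ∈ P.C, g * P.z ^ j = P.z ^ j * g := by
    intro g hg
    have : Commute g P.z := ((P.hC g).mp hg).symm
    exact (this.zpow_right j).eq
  have hxC : P.z ^ j ∈ P.C := by
    rw [P.hC]
    exact ((Commute.refl P.z).zpow_right j).eq
  have hxp : (P.z ^ j) ^ p = 1 := by
    rw [← zpow_natCast, ← zpow_mul, mul_comm, zpow_mul, zpow_natCast, P.hzp, one_zpow]
  have hle : Submodule.span k (Set.range fun a : Fin Y.n => P.i * Y.y ^ (a : ℕ)) ≤ L0 k P.i Y.y := by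
    rw [Submodule.span_le]
    rintro _ ⟨a, rfl⟩
    exact l0_pow_mem _
  obtain ⟨r, hr, h⟩ := zi_gen P Y.y Y.hiy Y.hyi ⟨Y.n, Y.hyn⟩ (P.z ^ j) hxc hxp
    (hle (Y.hsp _ (SuppOn.of hxC)))
  refine ⟨r, zi_supp P.hiC Y.hyC hr, ?_⟩
  rw [l0_left P.hi hr, l0_right P.hi Y.hiy Y.hyi hr]
  exact h

end Cfsg.Agent.Lib.Helper19.CY2
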