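import Mathlib
import Cfsg.Agent.Lib.Helper83.CY2S.Defs
import Cfsg.Agent.Lib.Helper19.CY2.COS
import Cfsg.Agent.Lib.Helper19.CY2.ZI
import Cfsg.Agent.Lib.Helper19.CY2.IDL

set_option autoImplicit false
set_option linter.unusedSectionVars false
set_option linter.unusedVariables false

/-! # Ladder CY2S, rung HE -/

namespace Cfsg.Agent.Lib.Helper19.CY2

open Cfsg.Agent.Lib.Helper80 Cfsg.Agent.Lib.Helper80.GA Cfsg.Agent.Lib.Helper83.CY2S
open scoped BigOperators

variable {k : Type*} {G : Type*} [Field k] [Group G] [Fintype G]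
variable {p : ℕ} {b : GA k G} {e : ℕ}

/-- the ideal `y Λ` -/
def heW (P : Pre p b e) (Y : YS P) : Submodule k (GA k G) where
  carrier := {w | ∃ l, SuppOn P.N l ∧ w = Y.y * (P.i * l * P.i)}
  add_mem' := by
    rintro _ _ ⟨l, hl, rfl⟩ ⟨l', hl', rfl⟩
    exact ⟨l + l', hl.add hl', by rw [mul_add, add_mul, mul_add]⟩
  zero_mem' := ⟨0, SuppOn.zero, by rw [mul_zero, zero_mul, mul_zero]⟩
  smul_mem' := by
    rintro c _ ⟨l, hl, rfl⟩
    exact ⟨c • l, hl.smul c, by rw [mul_smul_comm, smul_mul_assoc, mul_smul_comm]⟩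

theorem he_comm (P : Pre p b e) {u : G} (hu : u ∈ Subgroup.zpowers P.z) :
    P.i * of u = of u * P.i := by
  apply commute_of_suppOn_fixBy P.hiC
  intro c hc
  have h1 : c * u = u * c := by
    obtain ⟨j, rfl⟩ := hu
    have h2 : Commute P.z c := (P.hC c).1 hc
    exact (h2.zpow_left j).eq.symm
  rw [cj, of_mul_of, of_mul_of, h1, mul_assoc, mul_inv_cancel, mul_one]

theorem he_zC (P : Pre p b e) {u : G} (hu : u ∈ Subgroup.zpowers P.z) : u ∈ P.C := by
  have hz : P.z ∈ P.C := (P.hC P.z).2 rfl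
  exact (Subgroup.zpowers_le.2 hz) hu

theorem he0 [Fact p.Prime] [CharP k p] (P : Pre p b e) (Y : YS P) :
    ∃ lam, SuppOn P.N lam ∧ P.i * trunc P.N b * P.i = P.i + Y.y * (P.i * lam * P.i) := by
  classical
  have hCN : P.C ≤ P.N := P.hCT.trans P.hTN
  have hei : P.e1 * P.i = P.i := by
    rw [← commute_of_suppOn_fixBy P.hiC P.he1.2, P.hie]
  have hC1 : P.i * trunc P.C b * P.i = P.i := by
    calc P.i * trunc P.C b * P.i = P.i * (trunc P.C b * P.e1) * P.i := by
          rw [mul_assoc, mul_assoc, mul_assoc, hei]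
      _ = P.i := by rw [P.hbe, P.hie, P.hi]
  set n0 : GA k G := trunc P.N b - trunc P.C b with hn0
  have hn0C : ∀ g ∈ P.C, n0 g = 0 := by
    intro g hg
    show trunc P.N b g - trunc P.C b g = 0
    rw [trunc_apply_mem _ hg, trunc_apply_mem _ (hCN hg), sub_self]
  have hn0N : ∀ g, g ∉ P.N → n0 g = 0 := by
    intro g hg
    show trunc P.N b g - trunc P.C b g = 0
    rw [trunc_apply_not_mem _ hg, trunc_apply_not_mem _ (fun h => hg (hCN h)), sub_self]
  have hconjmem : ∀ (H : Subgroup G) (u : G), u ∈ H → ∀ g, u * g * u⁻¹ ∈ H ↔ g ∈ H := by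
    intro H u hu g
    constructor
    · intro h
      have := H.mul_mem (H.mul_mem (H.inv_mem hu) h) hu
      simpa [mul_assoc] using this
    · intro h
      exact H.mul_mem (H.mul_mem hu h) (H.inv_mem hu)
  have hn0fix : ∀ u ∈ Subgroup.zpowers P.z, ∀ g, n0 (u * g * u⁻¹) = n0 g := by
    intro u hu g
    have huC := he_zC P hu
    have hb : b (u * g * u⁻¹) = b g := P.hb.2.apply (Subgroup.mem_top u) g
    show trunc P.N b _ - trunc P.C b _ = trunc P.N b g - trunc P.C b g
    rw [trunc_apply, trunc_apply, trunc_apply, trunc_apply]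
    simp only [hconjmem P.N u (hCN huC) g, hconjmem P.C u huC g, hb]
  have hmem : P.i * n0 * P.i ∈ heW P Y := by
    by_contra hnot
    obtain ⟨f, hf, hW⟩ := Submodule.exists_le_ker_of_notMem hnot
    apply hf
    set F : G → k := fun g => n0 g * f (P.i * of g * P.i) with hF
    have hsum : f (P.i * n0 * P.i) = ∑ g, F g := by
      conv_lhs => rw [eq_sum_of n0]
      rw [Finset.mul_sum, Finset.sum_mul, map_sum]
      refine Finset.sum_congr rfl fun g _ => ?_
      rw [mul_smul_comm, smul_mul_assoc, map_smul, smul_eq_mul]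
    have hinv : ∀ u ∈ Subgroup.zpowers P.z, ∀ g, F (u * g * u⁻¹) = F g := by
      intro u hu g
      rw [hF]
      simp only
      rw [hn0fix u hu g]
      by_cases hg : g ∈ P.N
      · congr 1
        obtain ⟨r, hr, h1⟩ := zi1 P Y u hu
        obtain ⟨r', hr', h2⟩ := zi1 P Y u⁻¹ (Subgroup.inv_mem _ hu)
        obtain ⟨l, hl, h3⟩ := idl0 P Y (of g) r r' (SuppOn.of hg) hr hr'
        have h4 : P.i * of (u * g * u⁻¹) * P.i
            = (of u * P.i) * (P.i * of g * P.i) * (of u⁻¹ * P.i) := by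
          have e1 : of u⁻¹ * P.i = P.i * (of u⁻¹ * P.i) := by
            rw [← mul_assoc, he_comm P (Subgroup.inv_mem _ hu), mul_assoc, P.hi]
          rw [← of_mul_of, ← of_mul_of]
          calc P.i * (of u * of g * of u⁻¹) * P.i
              = (P.i * of u) * of g * (of u⁻¹ * P.i) := by simp only [mul_assoc]
            _ = (of u * P.i) * of g * (P.i * (of u⁻¹ * P.i)) := by rw [he_comm P hu, ← e1]
            _ = (of u * (P.i * P.i)) * of g * (P.i * (of u⁻¹ * P.i)) := by rw [P.hi]
            _ = (of u * P.i) * (P.i * of g * P.i) * (of u⁻¹ * P.i) := by simp only [mul_assoc]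
        rw [h4, h1, h2]
        have h5 : (P.i + Y.y * (P.i * r * P.i)) * (P.i * of g * P.i) *
            (P.i + Y.y * (P.i * r' * P.i)) = P.i * of g * P.i + Y.y * (P.i * l * P.i) := by
          rw [← h3]; abel
        rw [h5, map_add]
        have h6 : f (Y.y * (P.i * l * P.i)) = 0 := hW ⟨l, hl, rfl⟩
        rw [h6, add_zero]
      · rw [hn0N g hg, zero_mul, zero_mul]
    have hPg : IsPGroup p (Subgroup.zpowers P.z) := by
      apply IsPGroup.of_card (n := 1)
      rw [Nat.card_zpowers, pow_one]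
      exact orderOf_eq_prime P.hzp P.hz1
    rw [hsum, sum_conj_invariant hPg F hinv]
    refine Finset.sum_eq_zero fun x _ => ?_
    split_ifs with hx
    · have hxC : x ∈ P.C := by
        rw [P.hC]
        exact (mem_Cn.1 hx) P.z (Subgroup.mem_zpowers P.z)
      rw [hF]
      simp only
      rw [hn0C x hxC, zero_mul]
    · rfl
  obtain ⟨lam, hlam, h⟩ := hmem
  refine ⟨lam, hlam, ?_⟩
  have h7 : trunc P.N b = trunc P.C b + n0 := by rw [hn0]; abel
  rw [h7, mul_add, add_mul, hC1, h]

end Cfsg.Agent.Lib.Helper19.CY2
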