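import Mathlib

set_option autoImplicit false

/-! Ladder CY2 (helper19), part STRUCT, rung NORMS (helper86): an `e`-th root of a unit of the
truncated polynomial algebra `span {i y0 ^ a}`. -/

namespace Cfsg.Agent.Lib.Helper19.CY2

open Module Polynomial

section common

variable {F A : Type*} [Field F] [Ring A] [Algebra F A]

/-- the truncated polynomial algebra -/
def normsL (F : Type*) {A : Type*} [Field F] [Ring A] [Algebra F A] (i y0 : A) (n : ℕ) :
    Submodule F A :=
  Submodule.span F (Set.range fun a : Fin n => i * y0 ^ (a : ℕ))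

theorem norms_idem_pow {i : A} (hi : i * i = i) : ∀ m : ℕ, 0 < m → i ^ m = i := by
  intro m hm
  induction m with
  | zero => omega
  | succ m ih =>
    rcases Nat.eq_zero_or_pos m with rfl | h
    · simp
    · rw [pow_succ, ih h, hi]

theorem norms_comm_aeval {i y0 : A} (hy : i * y0 = y0) (hy' : y0 * i = y0) (P : F[X]) :
    Commute i (aeval y0 P) := by
  have h0 : Commute i y0 := by
    rw [commute_iff_eq, hy, hy']
  induction P using Polynomial.induction_on' with
  | add p q hp hq => rw [map_add]; exact hp.add_right hq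
  | monomial m a =>
    rw [aeval_monomial]
    exact (Algebra.commute_algebraMap_right a i).mul_right (h0.pow_right m)

theorem norms_pow_mem {i y0 : A} {n : ℕ} (hn : y0 ^ n = 0) (a : ℕ) :
    i * y0 ^ a ∈ normsL F i y0 n := by
  by_cases h : a < n
  · exact Submodule.subset_span ⟨⟨a, h⟩, rfl⟩
  · rw [pow_eq_zero_of_le (not_lt.1 h) hn, mul_zero]
    exact Submodule.zero_mem _

theorem norms_aeval_mem {i y0 : A} {n : ℕ} (hn : y0 ^ n = 0) (P : F[X]) :
    i * aeval y0 P ∈ normsL F i y0 n := by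
  induction P using Polynomial.induction_on' with
  | add p q hp hq => rw [map_add, mul_add]; exact Submodule.add_mem _ hp hq
  | monomial m a =>
    rw [aeval_monomial, ← Algebra.smul_def, mul_smul_comm]
    exact Submodule.smul_mem _ _ (norms_pow_mem hn m)

theorem norms_exists_poly {i y0 : A} {n : ℕ} {x : A} (hx : x ∈ normsL F i y0 n) :
    ∃ P : F[X], x = i * aeval y0 P := by
  unfold normsL at hx
  induction hx using Submodule.span_induction with
  | mem x h =>
    obtain ⟨a, rfl⟩ := h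
    exact ⟨X ^ (a : ℕ), by simp⟩
  | zero => exact ⟨0, by simp⟩
  | add x y _ _ hx hy =>
    obtain ⟨P, rfl⟩ := hx
    obtain ⟨Q, rfl⟩ := hy
    exact ⟨P + Q, by rw [map_add, mul_add]⟩
  | smul c x _ hx =>
    obtain ⟨P, rfl⟩ := hx
    exact ⟨c • P, by rw [map_smul, mul_smul_comm]⟩

theorem norms_ev_mul {i y0 : A} (hi : i * i = i) (hy : i * y0 = y0) (hy' : y0 * i = y0)
    (P Q : F[X]) : (i * aeval y0 P) * (i * aeval y0 Q) = i * aeval y0 (P * Q) := by
  have h := (norms_comm_aeval (F := F) hy hy' P).eq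
  rw [map_mul, mul_assoc, ← mul_assoc (aeval y0 P) i, ← h, mul_assoc, ← mul_assoc, hi]

theorem norms_mul_mem {i y0 : A} {n : ℕ} (hi : i * i = i) (hy : i * y0 = y0) (hy' : y0 * i = y0)
    (hn : y0 ^ n = 0) {x z : A} (hx : x ∈ normsL F i y0 n) (hz : z ∈ normsL F i y0 n) :
    x * z ∈ normsL F i y0 n := by
  obtain ⟨P, rfl⟩ := norms_exists_poly hx
  obtain ⟨Q, rfl⟩ := norms_exists_poly hz
  rw [norms_ev_mul hi hy hy']
  exact norms_aeval_mem hn _

theorem norms_mul_comm {i y0 : A} {n : ℕ} (hi : i * i = i) (hy : i * y0 = y0) (hy' : y0 * i = y0)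
    {x z : A} (hx : x ∈ normsL F i y0 n) (hz : z ∈ normsL F i y0 n) :
    x * z = z * x := by
  obtain ⟨P, rfl⟩ := norms_exists_poly hx
  obtain ⟨Q, rfl⟩ := norms_exists_poly hz
  rw [norms_ev_mul hi hy hy', norms_ev_mul hi hy hy', mul_comm]

theorem norms_i_mem {i y0 : A} {n : ℕ} (hn1 : 1 ≤ n) : i ∈ normsL F i y0 n :=
  Submodule.subset_span ⟨⟨0, hn1⟩, by simp⟩

theorem norms_i_mul {i y0 : A} {n : ℕ} (hi : i * i = i) {x : A} (hx : x ∈ normsL F i y0 n) :
    i * x = x := by
  obtain ⟨P, rfl⟩ := norms_exists_poly hx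
  rw [← mul_assoc, hi]

theorem norms_mul_i {i y0 : A} {n : ℕ} (hi : i * i = i) (hy : i * y0 = y0) (hy' : y0 * i = y0)
    {x : A} (hx : x ∈ normsL F i y0 n) : x * i = x := by
  obtain ⟨P, rfl⟩ := norms_exists_poly hx
  rw [mul_assoc, ← (norms_comm_aeval (F := F) hy hy' P).eq, ← mul_assoc, hi]

theorem norms_i_mul_pow_mem {i y0 : A} {n : ℕ} (hi : i * i = i) (hy : i * y0 = y0)
    (hy' : y0 * i = y0) (hn1 : 1 ≤ n) (hn : y0 ^ n = 0) {x : A} (hx : x ∈ normsL F i y0 n)
    (t : ℕ) : i * x ^ t ∈ normsL F i y0 n := by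
  induction t with
  | zero => simpa using norms_i_mem hn1
  | succ t ih =>
    rw [pow_succ, ← mul_assoc]
    exact norms_mul_mem hi hy hy' hn ih hx

/-- every element is `λ i + r`, `r = y0 * g`, `r ^ n = 0` -/
theorem norms_decomp {i y0 : A} {n : ℕ} (hi : i * i = i) (hy : i * y0 = y0)
    (hy' : y0 * i = y0) (hn : y0 ^ n = 0) {x : A} (hx : x ∈ normsL F i y0 n) :
    ∃ (l : F) (g : A), g ∈ normsL F i y0 n ∧ x = l • i + y0 * g ∧ (y0 * g) ^ n = 0 := by
  obtain ⟨P, rfl⟩ := norms_exists_poly hx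
  refine ⟨P.coeff 0, i * aeval y0 P.divX, norms_aeval_mem hn _, ?_, ?_⟩
  · conv_lhs => rw [← divX_mul_X_add P]
    rw [map_add, map_mul, aeval_X, aeval_C, mul_add, Algebra.algebraMap_eq_smul_one,
      mul_smul_comm, mul_one, add_comm, ← mul_assoc y0, hy']
    congr 1
    have h : aeval y0 P.divX * y0 = y0 * aeval y0 P.divX := by
      have e1 : aeval y0 (P.divX * X) = aeval y0 (X * P.divX) := by rw [mul_comm]
      rwa [map_mul, map_mul, aeval_X] at e1
    rw [h, ← mul_assoc, hy]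
  · rw [← mul_assoc, hy']
    have h : y0 * aeval y0 P.divX = aeval y0 (X * P.divX) := by
      rw [map_mul, aeval_X]
    rw [h, ← map_pow, mul_pow, map_mul, map_pow, aeval_X, hn, zero_mul]

end common

theorem norm_s {F A : Type*} [Field F] [IsAlgClosed F] [Ring A] [Algebra F A] (p : ℕ)
    [Fact p.Prime] [CharP F p]
    (i y0 s0 s0' : A) (n e : ℕ) (hi : i * i = i) (hy : i * y0 = y0) (hy' : y0 * i = y0)
    (hn1 : 1 ≤ n) (hn : y0 ^ n = 0)
    (hs : i * s0 = s0) (hs' : s0 * i = s0) (ht : i * s0' = s0') (ht' : s0' * i = s0')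
    (h1 : s0 * s0' = i) (h2 : s0' * s0 = i) (hi0 : i ≠ 0)
    (he : 0 < e) (hek : (e : F) ≠ 0)
    (hse : s0 ^ e ∈ Submodule.span F (Set.range fun a : Fin n => i * y0 ^ (a : ℕ))) :
    ∃ c : A, c ∈ Submodule.span F (Set.range fun a : Fin n => i * y0 ^ (a : ℕ)) ∧
      s0 * c = c * s0 ∧ (s0 * c) ^ e = i := by
  change s0 ^ e ∈ normsL F i y0 n at hse
  change ∃ c : A, c ∈ normsL F i y0 n ∧ _
  have hp : p.Prime := Fact.out
  have hnt : Nontrivial A := ⟨⟨i, 0, hi0⟩⟩
  have hchar : CharP A p := charP_of_injective_algebraMap (algebraMap F A).injective p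
  have hcis : Commute i s0 := by rw [commute_iff_eq, hs, hs']
  -- `i * s0 ^ j * s0' ^ j = i`
  have hinv : ∀ j : ℕ, i * s0 ^ j * s0' ^ j = i := by
    intro j
    induction j with
    | zero => simp
    | succ j ih =>
      have e1 : i * s0 ^ (j + 1) * s0' ^ (j + 1) = i * s0 ^ j * (s0 * s0') * s0' ^ j := by
        rw [pow_succ, pow_succ']
        simp only [mul_assoc]
      rw [e1, h1, mul_assoc i, ← (hcis.pow_right j).eq, ← mul_assoc, hi, ih]
  obtain ⟨l, g, hg, hdec, hnil⟩ := norms_decomp hi hy hy' hn hse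
  set r : A := y0 * g with hr
  have hl : l ≠ 0 := by
    rintro rfl
    rw [zero_smul, zero_add] at hdec
    apply hi0
    have := hinv (e * n)
    rw [pow_mul, hdec, hnil, mul_zero, zero_mul] at this
    exact this.symm
  have hir : i * r = r := by rw [hr, ← mul_assoc, hy]
  have hri : r * i = r := by rw [hr, mul_assoc, norms_mul_i hi hy hy' hg]
  set v : A := l⁻¹ • s0 ^ e with hv
  have hvL : v ∈ normsL F i y0 n := Submodule.smul_mem _ _ hse
  have hv2 : v = i + l⁻¹ • r := by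
    rw [hv, hdec, smul_add, smul_smul, inv_mul_cancel₀ hl, one_smul]
  have hM : n < p ^ n := Nat.lt_pow_self hp.one_lt
  have hvM : v ^ (p ^ n) = i := by
    have hc : Commute i (l⁻¹ • r) := by
      rw [commute_iff_eq, mul_smul_comm, smul_mul_assoc, hir, hri]
    rw [hv2, add_pow_char_pow_of_commute p n hc, norms_idem_pow hi _ (by omega), _root_.smul_pow,
      pow_eq_zero_of_le hM.le hnil, smul_zero, add_zero]
  have hcop : Nat.Coprime e (p ^ n) := by
    apply Nat.Coprime.pow_right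
    rw [Nat.coprime_comm, hp.coprime_iff_not_dvd]
    intro hd
    exact hek ((CharP.cast_eq_zero_iff F p e).2 hd)
  obtain ⟨t, -, ht1⟩ := Nat.exists_mul_mod_eq_of_coprime (p ^ n - 1) hcop (by omega)
  have hdvd : p ^ n ∣ e * t + 1 := by
    have h3 : e * t + 1 ≡ (p ^ n - 1) + 1 [MOD p ^ n] := Nat.ModEq.add_right 1 ht1
    rw [Nat.sub_add_cancel (by omega)] at h3
    exact (Nat.modEq_zero_iff_dvd).1 (h3.trans (by simp [Nat.ModEq]))
  obtain ⟨q, hq⟩ := hdvd
  have hq0 : 0 < q := by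
    rcases Nat.eq_zero_or_pos q with rfl | h
    · omega
    · exact h
  obtain ⟨μ, hμ⟩ := IsAlgClosed.exists_pow_nat_eq l⁻¹ he
  have hcsv : Commute s0 v := ((Commute.refl s0).pow_right e).smul_right l⁻¹
  have hciv : Commute i v := by
    rw [commute_iff_eq, norms_i_mul hi hvL, norms_mul_i hi hy hy' hvL]
  have hcsc : Commute s0 (μ • (i * v ^ t)) :=
    (hcis.symm.mul_right (hcsv.pow_right t)).smul_right μ
  refine ⟨μ • (i * v ^ t), Submodule.smul_mem _ _ (norms_i_mul_pow_mem hi hy hy' hn1 hn hvL t),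
    hcsc.eq, ?_⟩
  have hse2 : s0 ^ e = l • v := by
    rw [hv, smul_smul, mul_inv_cancel₀ hl, one_smul]
  rw [hcsc.mul_pow, _root_.smul_pow, hμ, (hciv.pow_right t).mul_pow, norms_idem_pow hi e he, hse2,
    smul_mul_smul_comm, mul_inv_cancel₀ hl, one_smul, ← mul_assoc, norms_mul_i hi hy hy' hvL,
    ← pow_mul, ← pow_succ', mul_comm t e, hq, pow_mul, hvM, norms_idem_pow hi q hq0]

end Cfsg.Agent.Lib.Helper19.CY2
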