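import Mathlib
import Cfsg.Agent.Lib.Helper19.CY2.NORMS

set_option autoImplicit false

/-! Ladder CY2 (helper19), part STRUCT, rung NORMY (helper86): an eigenvector of the automorphism
`a ↦ s0 a s0'` of the truncated polynomial algebra `span {i y0 ^ a}`. -/

namespace Cfsg.Agent.Lib.Helper19.CY2

open Module Polynomial

theorem normy_indep {F A : Type*} [Field F] [Ring A] [Algebra F A] {i y : A} {n : ℕ}
    (hn : y ^ n = 0) (hne : i * y ^ (n - 1) ≠ 0) :
    LinearIndependent F (fun a : Fin n => i * y ^ (a : ℕ)) := by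
  rw [Fintype.linearIndependent_iff]
  intro g hg
  have key : ∀ m : ℕ, ∀ a : Fin n, (a : ℕ) = m → g a = 0 := by
    intro m
    induction m using Nat.strong_induction_on with
    | _ m ih =>
      intro a ha
      have ha2 := a.2
      have h1 : (∑ b, g b • (i * y ^ (b : ℕ))) * y ^ (n - 1 - (a : ℕ)) = 0 := by
        rw [hg, zero_mul]
      rw [Finset.sum_mul, Finset.sum_eq_single a] at h1
      · rw [smul_mul_assoc, mul_assoc, ← pow_add,
          show (a : ℕ) + (n - 1 - (a : ℕ)) = n - 1 by omega] at h1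
        exact (smul_eq_zero.1 h1).resolve_right hne
      · intro b _ hb
        have hb2 := b.2
        rcases lt_or_gt_of_ne (Fin.val_ne_of_ne hb) with h | h
        · rw [ih b (by omega) b rfl, zero_smul, zero_mul]
        · rw [smul_mul_assoc, mul_assoc, ← pow_add, pow_eq_zero_of_le (by omega) hn, mul_zero,
            smul_zero]
      · intro h
        exact absurd (Finset.mem_univ a) h
  exact fun a => key a a rfl

theorem norm_y {F A : Type*} [Field F] [Ring A] [Algebra F A]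
    (i y0 s0 s0' : A) (n e : ℕ) (hi : i * i = i) (hy : i * y0 = y0) (hy' : y0 * i = y0)
    (hn1 : 1 ≤ n) (hn : y0 ^ n = 0) (hne : i * y0 ^ (n - 1) ≠ 0)
    (hs : i * s0 = s0) (hs' : s0 * i = s0) (ht : i * s0' = s0') (ht' : s0' * i = s0')
    (h1 : s0 * s0' = i) (h2 : s0' * s0 = i)
    (hconj : s0 * y0 * s0' ∈ Submodule.span F (Set.range fun a : Fin n => i * y0 ^ (a : ℕ)))
    (he : 0 < e) (hek : (e : F) ≠ 0)
    (hse : s0 ^ e ∈ Submodule.span F (Set.range fun a : Fin n => i * y0 ^ (a : ℕ))) :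
    ∃ (y : A) (chi : F), i * y = y ∧ y * i = y ∧ y ^ n = 0 ∧ i * y ^ (n - 1) ≠ 0 ∧
      Submodule.span F (Set.range fun a : Fin n => i * y ^ (a : ℕ)) =
        Submodule.span F (Set.range fun a : Fin n => i * y0 ^ (a : ℕ)) ∧
      s0 * y = chi • (y * s0) := by
  change s0 * y0 * s0' ∈ normsL F i y0 n at hconj
  change s0 ^ e ∈ normsL F i y0 n at hse
  change ∃ (y : A) (chi : F), i * y = y ∧ y * i = y ∧ y ^ n = 0 ∧ i * y ^ (n - 1) ≠ 0 ∧
      normsL F i y n = normsL F i y0 n ∧ s0 * y = chi • (y * s0)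
  rcases Nat.lt_or_ge n 2 with hn2 | hn2
  · obtain rfl : n = 1 := by omega
    have hy0 : y0 = 0 := by simpa using hn
    exact ⟨y0, 1, hy, hy', hn, hne, rfl, by rw [hy0]; simp⟩
  have hi0 : i ≠ 0 := by
    rintro rfl
    exact hne (zero_mul _)
  have hcis : Commute i s0 := by rw [commute_iff_eq, hs, hs']
  have hinv : ∀ j : ℕ, i * s0 ^ j * s0' ^ j = i := by
    intro j
    induction j with
    | zero => simp
    | succ j ih =>
      have e1 : i * s0 ^ (j + 1) * s0' ^ (j + 1) = i * s0 ^ j * (s0 * s0') * s0' ^ j := by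
        rw [pow_succ, pow_succ']
        simp only [mul_assoc]
      rw [e1, h1, mul_assoc i, ← (hcis.pow_right j).eq, ← mul_assoc, hi, ih]
  have hy0L : y0 ∈ normsL F i y0 n := by
    simpa [hy] using norms_pow_mem (F := F) (i := i) hn 1
  set L : Submodule F A := normsL F i y0 n with hL
  let θ : A →ₗ[F] A := (LinearMap.mulRight F s0').comp (LinearMap.mulLeft F s0)
  have hθ : ∀ a, θ a = s0 * a * s0' := fun a => rfl
  have hθmul : ∀ a b, a * i = a → θ (a * b) = θ a * θ b := by
    intro a b ha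
    rw [hθ, hθ, hθ]
    have : s0 * a * s0' * (s0 * b * s0') = s0 * (a * (s0' * s0) * b) * s0' := by
      simp only [mul_assoc]
    rw [this, h2, ha]
  have hθi : θ i = i := by rw [hθ, hs', h1]
  have hθy0L : θ y0 ∈ L := hconj
  have hθL : ∀ x ∈ L, θ x ∈ L := by
    have hpow : ∀ a : ℕ, θ (i * y0 ^ a) ∈ L := by
      intro a
      induction a with
      | zero =>
        rw [pow_zero, mul_one, hθi]
        exact norms_i_mem hn1
      | succ a ih =>
        rw [pow_succ, ← mul_assoc, hθmul _ _ (norms_mul_i (F := F) hi hy hy' (norms_pow_mem hn a))]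
        exact norms_mul_mem hi hy hy' hn ih hθy0L
    intro x hx
    have hle : normsL F i y0 n ≤ L.comap θ := Submodule.span_le.2 (by
      rintro _ ⟨a, rfl⟩
      exact hpow a)
    exact hle hx
  have hθpow : ∀ m : ℕ, θ y0 ^ (m + 1) = θ (y0 ^ (m + 1)) := by
    intro m
    induction m with
    | zero => simp
    | succ m ih =>
      rw [pow_succ, ih, pow_succ y0 (m + 1), hθmul _ _ (by rw [pow_succ, mul_assoc, hy'])]
  have hθnil : θ y0 ^ n = 0 := by
    obtain ⟨m, rfl⟩ : ∃ m, n = m + 1 := ⟨n - 1, by omega⟩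
    rw [hθpow, hn, map_zero]
  obtain ⟨l, g, hg, hdec, hnil⟩ := norms_decomp hi hy hy' hn hθy0L
  have hl : l = 0 := by
    have hc : Commute (θ y0) (y0 * g) :=
      norms_mul_comm hi hy hy' hθy0L (norms_mul_mem hi hy hy' hn hy0L hg)
    have hnl : IsNilpotent (θ y0 - y0 * g) := hc.isNilpotent_sub ⟨n, hθnil⟩ ⟨n, hnil⟩
    rw [hdec, add_sub_cancel_right] at hnl
    obtain ⟨N, hN⟩ := hnl
    have h4 : l ^ N • i = 0 := by
      have h3 : i * (l • i) ^ N = l ^ N • i := by
        rw [_root_.smul_pow, mul_smul_comm, ← pow_succ', norms_idem_pow hi _ (Nat.succ_pos N)]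
      rw [← h3, hN, mul_zero]
    by_contra hl0
    exact pow_ne_zero N hl0 ((smul_eq_zero.1 h4).resolve_right hi0)
  have hθg : θ y0 = y0 * g := by rw [hdec, hl, zero_smul, zero_add]
  obtain ⟨chi, g', hg', hdec', -⟩ := norms_decomp hi hy hy' hn hg
  have hθy0 : θ y0 = chi • y0 + y0 * y0 * g' := by
    rw [hθg, hdec', mul_add, mul_smul_comm, hy', mul_assoc]
  let R2 : Submodule F A := L.map (LinearMap.mulLeft F (y0 * y0))
  have hR2 : ∀ z ∈ L, y0 * y0 * z ∈ R2 := fun z hz => Submodule.mem_map.2 ⟨z, hz, rfl⟩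
  have hθR2 : ∀ x ∈ R2, θ x ∈ R2 := by
    intro x hx
    obtain ⟨z, hz, rfl⟩ := Submodule.mem_map.1 hx
    change θ (y0 * y0 * z) ∈ R2
    rw [hθmul _ _ (by rw [mul_assoc, hy']), hθmul _ _ hy', hθg]
    have hc := norms_mul_comm hi hy hy' hg hy0L
    have e1 : y0 * g * (y0 * g) * θ z = y0 * y0 * (g * g * θ z) := by
      calc y0 * g * (y0 * g) * θ z = y0 * (g * y0) * g * θ z := by simp only [mul_assoc]
        _ = y0 * (y0 * g) * g * θ z := by rw [hc]
        _ = _ := by simp only [mul_assoc]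
    rw [e1]
    exact hR2 _ (norms_mul_mem hi hy hy' hn (norms_mul_mem hi hy hy' hn hg hg) (hθL z hz))
  let Θ : ℕ → A := fun j => s0 ^ j * y0 * s0' ^ j
  have hΘ0 : Θ 0 = y0 := by simp [Θ]
  have hΘs : ∀ j, Θ (j + 1) = θ (Θ j) := by
    intro j
    change s0 ^ (j + 1) * y0 * s0' ^ (j + 1) = s0 * (s0 ^ j * y0 * s0' ^ j) * s0'
    rw [pow_succ', pow_succ]
    simp only [mul_assoc]
  have hΘL : ∀ j, Θ j ∈ L := by
    intro j
    induction j with
    | zero => rw [hΘ0]; exact hy0L
    | succ j ih => rw [hΘs]; exact hθL _ ih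
  have hΘR : ∀ j, Θ j - chi ^ j • y0 ∈ R2 := by
    intro j
    induction j with
    | zero =>
      rw [hΘ0, pow_zero, one_smul, sub_self]
      exact R2.zero_mem
    | succ j ih =>
      have e1 : Θ (j + 1) - chi ^ (j + 1) • y0 =
          θ (Θ j - chi ^ j • y0) + chi ^ j • (y0 * y0 * g') := by
        rw [hΘs, map_sub, map_smul, hθy0, smul_add, smul_smul, ← pow_succ]
        abel
      rw [e1]
      exact R2.add_mem (hθR2 _ ih) (R2.smul_mem _ (hR2 _ hg'))
  have hΘe : Θ e = y0 := by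
    change s0 ^ e * y0 * s0' ^ e = y0
    rw [norms_mul_comm hi hy hy' hse hy0L]
    calc y0 * s0 ^ e * s0' ^ e = y0 * i * s0 ^ e * s0' ^ e := by rw [hy']
      _ = y0 * (i * s0 ^ e * s0' ^ e) := by simp only [mul_assoc]
      _ = y0 := by rw [hinv, hy']
  have hnotR : ∀ c : F, c • y0 ∈ R2 → c = 0 := by
    intro c hc
    obtain ⟨z, hz, hz2⟩ := Submodule.mem_map.1 hc
    change y0 * y0 * z = c • y0 at hz2
    have h3 : c • y0 ^ (n - 1) = 0 := by
      have e1 : y0 ^ (n - 2) * (c • y0) = c • y0 ^ (n - 1) := by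
        rw [mul_smul_comm, ← pow_succ, show n - 2 + 1 = n - 1 by omega]
      rw [← e1, ← hz2, ← mul_assoc, ← mul_assoc, ← pow_succ, ← pow_succ,
        show n - 2 + 1 + 1 = n by omega, hn, zero_mul]
    have h4 : y0 ^ (n - 1) ≠ 0 := by
      intro h
      exact hne (by rw [h, mul_zero])
    exact (smul_eq_zero.1 h3).resolve_right h4
  have hchie : chi ^ e = 1 := by
    have h5 := hΘR e
    rw [hΘe] at h5
    have h6 : (1 - chi ^ e) • y0 ∈ R2 := by rwa [sub_smul, one_smul]
    exact (sub_eq_zero.1 (hnotR _ h6)).symm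
  have hchi0 : chi ≠ 0 := by
    rintro rfl
    rw [zero_pow he.ne'] at hchie
    exact zero_ne_one hchie
  set y : A := (e : F)⁻¹ • ∑ j ∈ Finset.range e, (chi⁻¹) ^ j • Θ j with hydef
  have hyL : y ∈ L := L.smul_mem _ (L.sum_mem fun j _ => L.smul_mem _ (hΘL j))
  have hyR : y - y0 ∈ R2 := by
    have e1 : y - y0 = (e : F)⁻¹ • ∑ j ∈ Finset.range e, (chi⁻¹) ^ j • (Θ j - chi ^ j • y0) := by
      have e2 : ∀ j, (chi⁻¹) ^ j • (Θ j - chi ^ j • y0) = (chi⁻¹) ^ j • Θ j - y0 := by
        intro j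
        rw [smul_sub, smul_smul, ← mul_pow, inv_mul_cancel₀ hchi0, one_pow, one_smul]
      simp only [e2]
      rw [Finset.sum_sub_distrib, Finset.sum_const, Finset.card_range, smul_sub,
        ← Nat.cast_smul_eq_nsmul F, smul_smul, inv_mul_cancel₀ hek, one_smul]
    rw [e1]
    exact R2.smul_mem _ (R2.sum_mem fun j _ => R2.smul_mem _ (hΘR j))
  have hθy : θ y = chi • y := by
    rw [hydef, map_smul, map_sum, smul_comm chi]
    congr 1
    have e3 : ∀ j, θ ((chi⁻¹) ^ j • Θ j) = chi • ((chi⁻¹) ^ (j + 1) • Θ (j + 1)) := by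
      intro j
      rw [map_smul, ← hΘs, smul_smul, pow_succ', ← mul_assoc, mul_inv_cancel₀ hchi0, one_mul]
    simp only [e3]
    rw [← Finset.smul_sum]
    congr 1
    have e4 := Finset.sum_range_succ (fun j => (chi⁻¹) ^ j • Θ j) e
    have e5 := Finset.sum_range_succ' (fun j => (chi⁻¹) ^ j • Θ j) e
    rw [e4] at e5
    have e6 : (chi⁻¹) ^ e • Θ e = (chi⁻¹) ^ 0 • Θ 0 := by
      rw [inv_pow, hchie, hΘe, hΘ0]
      simp
    rw [e6] at e5
    exact (add_right_cancel e5).symm
  obtain ⟨z, hz, hz2⟩ := Submodule.mem_map.1 hyR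
  change y0 * y0 * z = y - y0 at hz2
  set u : A := i + y0 * z with hu
  have huL : u ∈ L := L.add_mem (norms_i_mem hn1) (norms_mul_mem hi hy hy' hn hy0L hz)
  have hyu : y = y0 * u := by
    rw [hu, mul_add, hy', ← mul_assoc, hz2]
    abel
  have hcu : Commute y0 u := norms_mul_comm hi hy hy' hy0L huL
  have hyn : y ^ n = 0 := by rw [hyu, hcu.mul_pow, hn, zero_mul]
  have hpu : ∀ m : ℕ, y0 ^ (n - 1) * u ^ m = y0 ^ (n - 1) := by
    intro m
    induction m with
    | zero => simp
    | succ m ih =>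
      rw [pow_succ, ← mul_assoc, ih, hu, mul_add, ← mul_assoc, ← pow_succ,
        show n - 1 + 1 = n by omega, hn, zero_mul, add_zero]
      obtain ⟨m', hm'⟩ : ∃ m', n - 1 = m' + 1 := ⟨n - 2, by omega⟩
      rw [hm', pow_succ, mul_assoc, hy']
  have hyne : i * y ^ (n - 1) ≠ 0 := by
    rw [hyu, hcu.mul_pow, hpu]
    exact hne
  have hspan : normsL F i y n = L := by
    have hle : normsL F i y n ≤ L := Submodule.span_le.2 (by
      rintro _ ⟨a, rfl⟩
      exact norms_i_mul_pow_mem hi hy hy' hn1 hn hyL a)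
    have hfin : FiniteDimensional F L := FiniteDimensional.span_of_finite F (Set.finite_range _)
    apply Submodule.eq_of_le_of_finrank_le hle
    have f1 : finrank F (normsL F i y n) = n := by
      have := finrank_span_eq_card (normy_indep (F := F) hyn hyne)
      rw [Fintype.card_fin] at this
      exact this
    have f2 : finrank F L ≤ n := by
      have := finrank_range_le_card (R := F) (fun a : Fin n => i * y0 ^ (a : ℕ))
      rw [Fintype.card_fin] at this
      exact this
    omega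
  refine ⟨y, chi, norms_i_mul hi hyL, norms_mul_i hi hy hy' hyL, hyn, hyne, hspan, ?_⟩
  have h7 : θ y * s0 = chi • y * s0 := by rw [hθy]
  rw [hθ, mul_assoc, h2, mul_assoc, norms_mul_i hi hy hy' hyL, smul_mul_assoc] at h7
  exact h7

end Cfsg.Agent.Lib.Helper19.CY2
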