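import Mathlib
import Cfsg.Agent.Lib.Helper83.CY2S.Defs
import Cfsg.Agent.Lib.Helper19.CY2.COS
import Cfsg.Agent.Lib.Helper19.CY2.NORMY

set_option autoImplicit false
set_option linter.unusedSectionVars false
set_option linter.unusedVariables false

/-! # Ladder CY2S, rung IND -/

namespace Cfsg.Agent.Lib.Helper19.CY2

open Cfsg.Agent.Lib.Helper80 Cfsg.Agent.Lib.Helper80.GA Cfsg.Agent.Lib.Helper83.CY2S
open scoped BigOperators

variable {k : Type*} {G : Type*} [Field k] [Group G] [Fintype G]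
variable {p : ℕ} {b : GA k G} {e : ℕ}

theorem ind_trunc_zero {C : Subgroup G} {w : GA k G} (hw : SuppOn C w) {h : G} (hh : h ∉ C) :
    trunc C (w * of h) = 0 := by
  ext x
  by_cases hx : x ∈ C
  · rw [trunc_apply_mem _ hx, mul_of_apply]
    apply hw
    intro h1
    apply hh
    have := C.mul_mem (C.inv_mem h1) hx
    simpa using this
  · rw [trunc_apply_not_mem _ hx]; rfl

theorem ind_pow_not_mem (P : Pre p b e) {j j' : ℕ} (hj : j < e) (hj' : j' < e) (hne : j ≠ j') :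
    P.g0 ^ j * (P.g0 ^ j')⁻¹ ∉ P.C := by
  intro h
  rcases lt_or_gt_of_ne hne with hlt | hlt
  · apply P.hdist (j' - j) (by omega) (by omega)
    have h1 := P.C.inv_mem h
    have h2 : (P.g0 ^ j * (P.g0 ^ j')⁻¹)⁻¹ = P.g0 ^ (j' - j) := by
      obtain ⟨c, rfl⟩ : ∃ c, j' = j + c := ⟨j' - j, by omega⟩
      rw [show j + c - j = c by omega, pow_add]
      group
    rwa [h2] at h1
  · apply P.hdist (j - j') (by omega) (by omega)
    have h2 : P.g0 ^ j * (P.g0 ^ j')⁻¹ = P.g0 ^ (j - j') := by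
      obtain ⟨c, rfl⟩ : ∃ c, j = j' + c := ⟨j - j', by omega⟩
      rw [show j' + c - j' = c by omega, pow_add]
      have : Commute (P.g0 ^ j') (P.g0 ^ c) := (Commute.refl P.g0).pow_pow _ _
      rw [this.eq]
      group
    rwa [h2] at h

theorem ind0 (P : Pre p b e) (Y : YS P) : LinearIndependent k (fun q : Fin Y.n × Fin e =>
      P.i * Y.y ^ (q.1 : ℕ) * Y.s ^ (q.2 : ℕ)) := by
  classical
  rw [Fintype.linearIndependent_iff]
  intro g hg
  set u : Fin e → GA k G := fun j => ∑ a : Fin Y.n, g (a, j) • (P.i * Y.y ^ (a : ℕ)) with hu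
  have huC : ∀ j, SuppOn P.C (u j) := fun j =>
    SuppOn.sum _ _ fun a _ => (P.hiC.mul (Y.hyC.pow _)).smul _
  have hsum : ∑ j : Fin e, u j * Y.s ^ (j : ℕ) = 0 := by
    rw [← hg, Fintype.sum_prod_type_right]
    refine Finset.sum_congr rfl fun j _ => ?_
    rw [hu]
    simp only
    rw [Finset.sum_mul]
    refine Finset.sum_congr rfl fun a _ => ?_
    rw [smul_mul_assoc]
  have hui : ∀ j, u j * P.i = u j := by
    intro j
    rw [hu]
    simp only
    rw [Finset.sum_mul]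
    refine Finset.sum_congr rfl fun a _ => ?_
    rw [smul_mul_assoc]
    congr 1
    rcases Nat.eq_zero_or_pos (a : ℕ) with h0 | h0
    · rw [h0, pow_zero, mul_one, P.hi]
    · obtain ⟨c, hc⟩ : ∃ c, (a : ℕ) = c + 1 := ⟨(a : ℕ) - 1, by omega⟩
      rw [hc, pow_succ, mul_assoc, mul_assoc, Y.hyi]
  have hzero : ∀ j0 : Fin e, u j0 = 0 := by
    intro j0
    have h1 : trunc P.C ((∑ j : Fin e, u j * Y.s ^ (j : ℕ)) * of (P.g0 ^ (j0 : ℕ))⁻¹) = 0 := by
      rw [hsum, zero_mul, trunc_zero]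
    rw [Finset.sum_mul, trunc_sum, Finset.sum_eq_single j0] at h1
    · have h2 : SuppOn P.C (u j0 * Y.s ^ (j0 : ℕ) * of (P.g0 ^ (j0 : ℕ))⁻¹) := by
        rw [mul_assoc]
        exact (huC j0).mul (cos0 P Y j0)
      rw [trunc_eq_self h2] at h1
      have h3 : u j0 * Y.s ^ (j0 : ℕ) = 0 := by
        have := congrArg (· * of (P.g0 ^ (j0 : ℕ))) h1
        simp only [zero_mul] at this
        rwa [mul_assoc, of_inv_mul_of, mul_one] at this
      have h4 : u j0 * Y.s ^ (j0 : ℕ) * Y.s ^ (e - (j0 : ℕ)) = u j0 := by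
        rw [mul_assoc, ← pow_add, show (j0 : ℕ) + (e - (j0 : ℕ)) = e by have := j0.2; omega, Y.hse,
          hui]
      rw [← h4, h3, zero_mul]
    · intro j _ hj
      have h2 : u j * Y.s ^ (j : ℕ) * of (P.g0 ^ (j0 : ℕ))⁻¹
          = (u j * (Y.s ^ (j : ℕ) * of (P.g0 ^ (j : ℕ))⁻¹)) *
            of (P.g0 ^ (j : ℕ) * (P.g0 ^ (j0 : ℕ))⁻¹) := by
        rw [← of_mul_of]
        simp only [mul_assoc]
        rw [← mul_assoc (of (P.g0 ^ (j : ℕ))⁻¹) (of (P.g0 ^ (j : ℕ))), of_inv_mul_of, one_mul]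
      rw [h2]
      exact ind_trunc_zero ((huC j).mul (cos0 P Y j))
        (ind_pow_not_mem P j.2 j0.2 (fun h => hj (Fin.ext h)))
    · intro h; exact absurd (Finset.mem_univ _) h
  have hli := normy_indep (F := k) (i := P.i) Y.hyn (by
    have hn := Y.hn
    obtain ⟨c, hc⟩ : ∃ c, Y.n - 1 = c + 1 := ⟨Y.n - 2, by omega⟩
    have : P.i * Y.y ^ (Y.n - 1) = Y.y ^ (Y.n - 1) := by
      rw [hc, pow_succ', ← mul_assoc, Y.hiy]
    rw [this]
    exact Y.hyn1)
  rw [Fintype.linearIndependent_iff] at hli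
  rintro ⟨a, j⟩
  exact hli (fun a => g (a, j)) (hzero j) a

end Cfsg.Agent.Lib.Helper19.CY2
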