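import Mathlib
import Cfsg.Agent.Lib.Helper83.CY2S.Defs

set_option autoImplicit false
set_option linter.unusedSectionVars false
set_option linter.unusedVariables false

namespace Cfsg.Agent.Lib.Helper19.CY2

open Cfsg.Agent.Lib.Helper80 Cfsg.Agent.Lib.Helper80.GA Cfsg.Agent.Lib.Helper83.CY2S
open scoped BigOperators

variable {k : Type*} {G : Type*} [Field k] [Group G] [Fintype G]
variable {p : ℕ} {b : GA k G} {e : ℕ}

theorem trn_pow_mem (P : Pre p b e) (j : ℕ) : P.g0 ^ j ∈ P.T1 := P.T1.pow_mem P.hg0 j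

/-- the cosets `g0^j C`, `j < e`, are pairwise distinct. -/
theorem trn_exp (P : Pre p b e) {j j' : ℕ} (hj : j < e) (hj' : j' < e)
    (h : (P.g0 ^ j')⁻¹ * P.g0 ^ j ∈ P.C) : j = j' := by
  by_contra hne
  rcases Nat.lt_or_gt_of_ne hne with hlt | hlt
  · have h1 : P.g0 ^ (j' - j) ∈ P.C := by
      have h2 : P.g0 ^ (j' - j) = ((P.g0 ^ j')⁻¹ * P.g0 ^ j)⁻¹ := by
        rw [mul_inv_rev, inv_inv, eq_inv_mul_iff_mul_eq, ← pow_add]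
        congr 1; omega
      rw [h2]
      exact P.C.inv_mem h
    exact P.hdist _ (by omega) (by omega) h1
  · have h1 : P.g0 ^ (j - j') ∈ P.C := by
      have h2 : P.g0 ^ (j - j') = (P.g0 ^ j')⁻¹ * P.g0 ^ j := by
        rw [eq_inv_mul_iff_mul_eq, ← pow_add]
        congr 1; omega
      rw [h2]
      exact h
    exact P.hdist _ (by omega) (by omega) h1

/-- the key uniqueness statement for the three-level transversal. -/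
theorem trn_key (P : Pre p b e) (R : Finset G) (hR : ∀ t ∈ R, t ∈ P.N)
    (hR' : ∀ g ∈ P.N, ∃! t, t ∈ R ∧ t⁻¹ * g ∈ P.T1)
    {r r' : G} (hr : r ∈ R) (hr' : r' ∈ R) {j j' : ℕ} (hj : j < e) (hj' : j' < e)
    {t t' : G} (ht : t ∈ P.TC) (ht' : t' ∈ P.TC)
    (h : (r' * P.g0 ^ j' * t')⁻¹ * (r * P.g0 ^ j * t) ∈ P.D) : r = r' ∧ j = j' ∧ t = t' := by
  set d := (r' * P.g0 ^ j' * t')⁻¹ * (r * P.g0 ^ j * t) with hd
  have hdC : d ∈ P.C := P.hDC h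
  have htC : t ∈ P.C := P.hTC t ht
  have htC' : t' ∈ P.C := P.hTC t' ht'
  have h1 : r'⁻¹ * r = P.g0 ^ j' * (t' * d * t⁻¹) * (P.g0 ^ j)⁻¹ := by
    rw [hd]; group
  have h2 : r'⁻¹ * r ∈ P.T1 := by
    rw [h1]
    exact P.T1.mul_mem (P.T1.mul_mem (trn_pow_mem P j')
      (P.hCT (P.C.mul_mem (P.C.mul_mem htC' hdC) (P.C.inv_mem htC)))) (P.T1.inv_mem (trn_pow_mem P j))
  have hrr : r = r' := by
    obtain ⟨x, -, hx⟩ := hR' r (hR r hr)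
    rw [hx r ⟨hr, by rw [inv_mul_cancel]; exact P.T1.one_mem⟩, hx r' ⟨hr', h2⟩]
  subst hrr
  have h3 : (P.g0 ^ j')⁻¹ * P.g0 ^ j = t' * d * t⁻¹ := by
    rw [hd]; group
  have hjj : j = j' := by
    apply trn_exp P hj hj'
    rw [h3]
    exact P.C.mul_mem (P.C.mul_mem htC' hdC) (P.C.inv_mem htC)
  subst hjj
  refine ⟨rfl, rfl, ?_⟩
  have h4 : t'⁻¹ * t = d := by
    rw [hd]; group
  obtain ⟨x, -, hx⟩ := P.hTC' t htC
  rw [hx t ⟨ht, by rw [inv_mul_cancel]; exact P.D.one_mem⟩, hx t' ⟨ht', by rw [h4]; exact h⟩]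

/-- TRN. -/
theorem trn0 (P : Pre p b e) (R : Finset G) (hR : ∀ t ∈ R, t ∈ P.N)
    (hR' : ∀ g ∈ P.N, ∃! t, t ∈ R ∧ t⁻¹ * g ∈ P.T1) :
    ∃ (TN : Finset G) (c : GA k G), (∀ t ∈ TN, t ∈ P.N) ∧
      (∀ g ∈ P.N, ∃! t, t ∈ TN ∧ t⁻¹ * g ∈ P.D) ∧ FixBy P.D c ∧
      ∑ t ∈ TN, of t * c * of t⁻¹ = ∑ t ∈ R, cj t P.e1 := by
  classical
  let φ : G × ℕ × G → G := fun q => q.1 * P.g0 ^ q.2.1 * q.2.2
  let S : Finset (G × ℕ × G) := R ×ˢ (Finset.range e ×ˢ P.TC)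
  have hS : ∀ q, q ∈ S ↔ q.1 ∈ R ∧ q.2.1 < e ∧ q.2.2 ∈ P.TC := by
    intro q
    simp only [S, Finset.mem_product, Finset.mem_range]
  refine ⟨S.image φ, (e : k)⁻¹ • P.c1, ?_, ?_, P.hc1.smul _, ?_⟩
  · intro u hu
    obtain ⟨q, hq, rfl⟩ := Finset.mem_image.1 hu
    obtain ⟨h1, h2, h3⟩ := (hS q).1 hq
    exact P.N.mul_mem (P.N.mul_mem (hR _ h1) (P.hTN (trn_pow_mem P _)))
      (P.hTN (P.hCT (P.hTC _ h3)))
  · intro g hg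
    obtain ⟨r, ⟨hr, hrg⟩, -⟩ := hR' g hg
    obtain ⟨j, hj, hjg⟩ := P.hcos _ hrg
    have h1 : (P.g0 ^ j)⁻¹ * (r⁻¹ * g) ∈ P.C := by
      have := P.hnorm (P.g0 ^ j)⁻¹ (P.N.inv_mem (P.hTN (trn_pow_mem P j))) _ hjg
      have h2 : (P.g0 ^ j)⁻¹ * (r⁻¹ * g * (P.g0 ^ j)⁻¹) * (P.g0 ^ j)⁻¹⁻¹ = (P.g0 ^ j)⁻¹ * (r⁻¹ * g) := by
        group
      rwa [h2] at this
    obtain ⟨t, ⟨ht, htg⟩, -⟩ := P.hTC' _ h1
    have h3 : (r * P.g0 ^ j * t)⁻¹ * g ∈ P.D := by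
      have h4 : (r * P.g0 ^ j * t)⁻¹ * g = t⁻¹ * ((P.g0 ^ j)⁻¹ * (r⁻¹ * g)) := by group
      rw [h4]; exact htg
    refine ⟨r * P.g0 ^ j * t, ⟨Finset.mem_image.2 ⟨(r, j, t), (hS _).2 ⟨hr, hj, ht⟩, rfl⟩, h3⟩, ?_⟩
    rintro u ⟨hu, hug⟩
    obtain ⟨q, hq, rfl⟩ := Finset.mem_image.1 hu
    obtain ⟨q1, q2, q3⟩ := (hS q).1 hq
    have h5 : (φ q)⁻¹ * (r * P.g0 ^ j * t) ∈ P.D := by
      have h6 : (φ q)⁻¹ * (r * P.g0 ^ j * t) = ((φ q)⁻¹ * g) * ((r * P.g0 ^ j * t)⁻¹ * g)⁻¹ := by group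
      rw [h6]
      exact P.D.mul_mem hug (P.D.inv_mem h3)
    obtain ⟨e1, e2, e3⟩ := trn_key P R hR hR' hr q1 hj q2 ht q3 h5
    change q.1 * P.g0 ^ q.2.1 * q.2.2 = _
    rw [← e1, ← e2, ← e3]
  · have hinj : Set.InjOn φ (S : Set (G × ℕ × G)) := by
      intro q hq q' hq' hqq
      obtain ⟨q1, q2, q3⟩ := (hS q).1 hq
      obtain ⟨q1', q2', q3'⟩ := (hS q').1 hq'
      have h5 : (q'.1 * P.g0 ^ q'.2.1 * q'.2.2)⁻¹ * (q.1 * P.g0 ^ q.2.1 * q.2.2) ∈ P.D := by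
        have : q.1 * P.g0 ^ q.2.1 * q.2.2 = q'.1 * P.g0 ^ q'.2.1 * q'.2.2 := hqq
        rw [this, inv_mul_cancel]
        exact P.D.one_mem
      obtain ⟨e1, e2, e3⟩ := trn_key P R hR hR' q1 q1' q2 q2' q3 q3' h5
      exact Prod.ext e1 (Prod.ext e2 e3)
    rw [Finset.sum_image hinj, Finset.sum_product]
    apply Finset.sum_congr rfl
    intro r hr
    rw [Finset.sum_product]
    have h1 : ∀ j ∈ Finset.range e, ∑ t ∈ P.TC, of (φ (r, j, t)) * ((e : k)⁻¹ • P.c1) * of (φ (r, j, t))⁻¹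
        = (e : k)⁻¹ • cj r P.e1 := by
      intro j hj
      have h2 : ∀ t ∈ P.TC, of (φ (r, j, t)) * ((e : k)⁻¹ • P.c1) * of (φ (r, j, t))⁻¹
          = (e : k)⁻¹ • cj (r * P.g0 ^ j) (of t * P.c1 * of t⁻¹) := by
        intro t ht
        have h3 : of (φ (r, j, t)) * ((e : k)⁻¹ • P.c1) * of (φ (r, j, t))⁻¹
            = cj (r * P.g0 ^ j * t) ((e : k)⁻¹ • P.c1) := rfl
        have h4 : of t * P.c1 * of t⁻¹ = cj t P.c1 := rfl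
        rw [h3, h4, cj_cj, cj_smul]
      rw [Finset.sum_congr rfl h2, ← Finset.smul_sum, ← cj_sum, P.hc1tr, ← cj_cj,
        P.hT1 _ (trn_pow_mem P j)]
    rw [Finset.sum_congr rfl h1, Finset.sum_const, Finset.card_range, ← Nat.cast_smul_eq_nsmul k,
      smul_smul, mul_inv_cancel₀ P.hek, one_smul]

end Cfsg.Agent.Lib.Helper19.CY2
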