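import Mathlib
import Cfsg.Agent.Lib.Helper83.CY2S.Defs
import Cfsg.Agent.Lib.Helper19.CY2.COS
import Cfsg.Agent.Lib.Helper19.CY2.SPAN
import Cfsg.Agent.Lib.Helper19.CY2.IND
import Cfsg.Agent.Lib.Helper19.CY2.HE
import Cfsg.Agent.Lib.Helper19.CY2.EEZ
import Cfsg.Agent.Lib.Helper19.CY2.EEI
import Cfsg.Agent.Lib.Helper19.CY2.EES
import Cfsg.Agent.Lib.Helper19.CY2.TRN

set_option autoImplicit false
set_option linter.unusedSectionVars false
set_option linter.unusedVariables false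

/-! # Ladder CY2S: assembly `Pre + YS ⇒ Cfg` -/

namespace Cfsg.Agent.Lib.Helper19.CY2

open Cfsg.Agent.Lib.Helper80 Cfsg.Agent.Lib.Helper80.GA Cfsg.Agent.Lib.Helper83.CY2S
open scoped BigOperators

variable {k : Type*} {G : Type*} [Field k] [Group G] [Fintype G]
variable {p : ℕ} {b : GA k G} {e : ℕ}

theorem cfg_of_ys [Fact p.Prime] [CharP k p] (P : Pre p b e) (Y : YS P) : Nonempty (Cfg b e) := by
  obtain ⟨R, hR, hR'⟩ := trv0 P
  obtain ⟨TN, c, hTN, hTN', hc, htr⟩ := trn0 P R hR hR'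
  obtain ⟨m, aa, bb, haa, hbb, hsum⟩ := ees0 P R hR
  obtain ⟨h1, h2, h3⟩ := eei0 P R hR hR'
  obtain ⟨lam, hlam, hE⟩ := he0 P Y
  have hCN : P.C ≤ P.N := P.hCT.trans P.hTN
  have hsN : SuppOn P.N Y.s := by
    have h := (Y.hsC.mono hCN).mul (SuppOn.of (k := k) (P.hTN P.hg0))
    rwa [mul_assoc, of_mul_of, inv_mul_cancel, of_one, mul_one] at h
  exact ⟨{
    N := P.N
    D := P.D
    ee := ∑ t ∈ R, cj t P.e1
    c := c
    TN := TN
    i := P.i
    m := m
    aa := aa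
    bb := bb
    y := Y.y
    s := Y.s
    chi := Y.chi
    n := Y.n
    lam := lam
    hDN := P.hDC.trans hCN
    ti := P.ti
    hb := P.hb
    hbb := P.hbb
    hee := eez0 P R hR hR'
    hee2 := h1
    hTN := hTN
    hTN' := hTN'
    hc := hc
    htr := htr
    hi := P.hi
    hiN := P.hiC.mono hCN
    hie := h2
    hei := h3
    haa := haa
    hbbN := hbb
    hsum := hsum
    hyN := Y.hyC.mono hCN
    hsN := hsN
    hiy := Y.hiy
    hyi := Y.hyi
    his := Y.his
    hsi := Y.hsi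
    hn := Y.hn
    hyn := Y.hyn
    he := P.he
    hek := P.hek
    hse := Y.hse
    hsy := Y.hsy
    hspan := span0 P Y
    hind := ind0 P Y
    hlam := hlam
    hE := hE }⟩

end Cfsg.Agent.Lib.Helper19.CY2
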