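import Mathlib
import Cfsg.Agent.Lib.Helper83.CY2S.Defs
import Cfsg.Agent.Lib.Helper19.CY2.ZI

set_option autoImplicit false
set_option linter.unusedSectionVars false
set_option linter.unusedVariables false

/-! Ladder CY2S wave 2, rung NE (helper98). -/

namespace Cfsg.Agent.Lib.Helper19.CY2

open Cfsg.Agent.Lib.Helper80 Cfsg.Agent.Lib.Helper80.GA Cfsg.Agent.Lib.Helper83.CY2S
open scoped BigOperators

variable {k : Type*} {G : Type*} [Field k] [Group G] [Fintype G]
variable {p : ℕ} {b : GA k G} {e : ℕ}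

/-- an idempotent absorbing `of z` on both sides, `z ≠ 1` of order `p`, vanishes in char `p` -/
theorem ne_abs [Fact p.Prime] [CharP k p] (i : GA k G) (hi : i * i = i) (z : G) (hz1 : z ≠ 1)
    (hzp : z ^ p = 1) (h1 : of z * i = i) (h2 : i * of z = i) : i = 0 := by
  classical
  let K : Subgroup G :=
    { carrier := {u | of u * i = i ∧ i * of u = i}
      one_mem' := ⟨by rw [of_one, one_mul], by rw [of_one, mul_one]⟩
      mul_mem' := fun {u v} hu hv =>
        ⟨by rw [← of_mul_of, mul_assoc, hv.1, hu.1], by rw [← of_mul_of, ← mul_assoc, hu.2, hv.2]⟩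
      inv_mem' := fun {u} hu =>
        ⟨by
          nth_rewrite 1 [← hu.1]
          rw [← mul_assoc, of_inv_mul_of, one_mul], by
          nth_rewrite 1 [← hu.2]
          rw [mul_assoc, of_mul_of_inv, mul_one]⟩ }
  have hK : Subgroup.zpowers z ≤ K := by
    rw [Subgroup.zpowers_le]
    exact ⟨h1, h2⟩
  have hS : IsPGroup p (Subgroup.zpowers z) := by
    rintro ⟨_, ⟨j, rfl⟩⟩
    refine ⟨1, Subtype.ext ?_⟩
    change (z ^ j) ^ (p ^ 1) = 1
    rw [pow_one, ← zpow_natCast, ← zpow_mul, mul_comm, zpow_mul, zpow_natCast, hzp, one_zpow]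
  ext g
  rw [← hi, mul_apply, GA.zero_apply]
  rw [sum_eq_sum_fixed hS (fun (u : Subgroup.zpowers z) (h : G) => h * (u : G)⁻¹)
    (fun h => by simp) (fun a c h => by simp [mul_assoc]) Finset.univ
    (fun _ _ _ => Finset.mem_univ _) (fun h => i h * i (h⁻¹ * g)) ?_]
  · apply Finset.sum_eq_zero
    intro h hh
    exfalso
    rw [Finset.mem_filter] at hh
    have := hh.2 ⟨z, Subgroup.mem_zpowers z⟩
    apply hz1
    have h3 : h * z⁻¹ = h := this
    have h4 : z⁻¹ = 1 := mul_left_cancel (h3.trans (mul_one h).symm)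
    exact inv_eq_one.mp h4
  · intro u h _
    have hu := hK u.2
    have e1 : i (h * (u : G)⁻¹) = i h := by
      have := congrArg (fun a : GA k G => a h) hu.2
      simp only [mul_of_apply] at this
      exact this
    have e2 : i ((h * (u : G)⁻¹)⁻¹ * g) = i (h⁻¹ * g) := by
      have := congrArg (fun a : GA k G => a (h⁻¹ * g)) (K.inv_mem hu).1
      simp only [of_mul_apply, inv_inv] at this
      rw [mul_inv_rev, inv_inv, mul_assoc]
      exact this
    change i (h * (u : G)⁻¹) * i ((h * (u : G)⁻¹)⁻¹ * g) = i h * i (h⁻¹ * g)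
    rw [e1, e2]

theorem ne0 [Fact p.Prime] [CharP k p] (P : Pre p b e) : P.y0 ≠ 0 := by
  intro h0
  obtain ⟨r, _, hr⟩ := zi0 P
  rw [h0, zero_mul, add_zero] at hr
  have hfix : FixBy P.C (of P.z : GA k G) := by
    intro g hg
    unfold cj
    rw [of_mul_of, of_mul_of, ← (P.hC g).mp hg, mul_inv_cancel_right]
  have hcomm : P.i * of P.z = of P.z * P.i := commute_of_suppOn_fixBy P.hiC hfix
  exact P.hi0 (ne_abs P.i P.hi P.z P.hz1 P.hzp hr (hcomm.trans hr))

end Cfsg.Agent.Lib.Helper19.CY2
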