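import Mathlib
import Cfsg.Agent.Lib.Helper83.CY2S.Defs
import Cfsg.Agent.Lib.Helper83.CY2S.L0
import Cfsg.Agent.Lib.Helper83.CY2S.DED
import Cfsg.Agent.Lib.Helper19.CY2.ZI

set_option autoImplicit false
set_option linter.unusedSectionVars false
set_option linter.unusedVariables false

/-! Ladder CY2S wave 2, rung UNIT (helper98). -/

namespace Cfsg.Agent.Lib.Helper19.CY2

open Cfsg.Agent.Lib.Helper80 Cfsg.Agent.Lib.Helper80.GA Cfsg.Agent.Lib.Helper83.CY2S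
open scoped BigOperators

variable {k : Type*} {G : Type*} [Field k] [Group G] [Fintype G]
variable {p : ℕ} {b : GA k G} {e : ℕ}

theorem unit_supp_cj (P : Pre p b e) {g : G} (hg : g ∈ P.N) {a : GA k G} (ha : SuppOn P.C a) :
    SuppOn P.C (cj g a) := by
  intro x hx
  rw [cj_apply]
  apply ha
  intro h
  apply hx
  have := P.hnorm g hg _ h
  have e1 : g * (g⁻¹ * x * g) * g⁻¹ = x := by group
  rwa [e1] at this

theorem unit0 (P : Pre p b e) : ∃ s0 t0 : GA k G, P.i * s0 = s0 ∧ s0 * P.i = s0 ∧ P.i * t0 = t0 ∧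
    t0 * P.i = t0 ∧ s0 * t0 = P.i ∧ t0 * s0 = P.i ∧ SuppOn P.C (s0 * of P.g0⁻¹) ∧
    SuppOn P.C (of P.g0 * t0) := by
  have hgN : P.g0 ∈ P.N := P.hTN P.hg0
  obtain ⟨i', hi'⟩ : ∃ i', i' = cj P.g0 P.i := ⟨_, rfl⟩
  obtain ⟨X, hX⟩ : ∃ X : Fin P.m → GA k G, X = fun j => cj P.g0 (P.xx j) := ⟨_, rfl⟩
  obtain ⟨Y, hY⟩ : ∃ Y : Fin P.m → GA k G, Y = fun j => cj P.g0 (P.yy j) := ⟨_, rfl⟩
  have hi'C : SuppOn P.C i' := hi' ▸ unit_supp_cj P hgN P.hiC
  have hXC : ∀ j, SuppOn P.C (X j) := fun j => by rw [hX]; exact unit_supp_cj P hgN (P.hxx j)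
  have hYC : ∀ j, SuppOn P.C (Y j) := fun j => by rw [hY]; exact unit_supp_cj P hgN (P.hyy j)
  have hi'i' : i' * i' = i' := by rw [hi', ← cj_mul, P.hi]
  have he1 : ∑ j, X j * i' * Y j = P.e1 := by
    rw [← P.hT1 P.g0 P.hg0, ← P.hsum, cj_sum, hX, hY, hi']
    exact Finset.sum_congr rfl (fun j _ => by rw [cj_mul, cj_mul])
  have hsumT : ∑ j, P.i * (X j * i' * Y j) * P.i = P.i := by
    rw [← Finset.sum_mul, ← Finset.mul_sum, he1, P.hie, P.hi]
  have hdec : ∀ j, ∃ c : k, ∃ r' ∈ L0 k P.i P.y0,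
      P.i * (X j * i' * Y j) * P.i = c • P.i + P.y0 * r' := fun j =>
    l0_decomp P.hi P.hiy P.hyi (P.hspan _ (((hXC j).mul hi'C).mul (hYC j)))
  choose c r hr hT using hdec
  have hex : ∃ j, c j ≠ 0 := by
    by_contra hno
    push Not at hno
    have h1 : P.i = P.y0 * ∑ j, r j := by
      rw [Finset.mul_sum]
      nth_rewrite 1 [← hsumT]
      exact Finset.sum_congr rfl (fun j _ => by rw [hT j, hno j, zero_smul, zero_add])
    have h2 : IsNilpotent P.i := by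
      rw [h1]
      exact l0_nil P.hi P.hiy P.hyi P.hnil (Submodule.sum_mem _ (fun j _ => hr j))
    obtain ⟨M, hM⟩ := h2
    have hipow : ∀ n : ℕ, P.i * P.i ^ n = P.i := by
      intro n
      induction n with
      | zero => rw [pow_zero, mul_one]
      | succ n ih => rw [pow_succ, ← mul_assoc, ih, P.hi]
    have := hipow M
    rw [hM, mul_zero] at this
    exact P.hi0 this.symm
  obtain ⟨j, hj⟩ := hex
  obtain ⟨w, hw, hTw⟩ := l0_inv P.hi P.hiy P.hyi P.hnil hj (hr j)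
  rw [← hT j] at hTw
  have hwC : SuppOn P.C w := zi_supp P.hiC P.hy0C hw
  have hwi : w * P.i = w := l0_right P.hi P.hiy P.hyi hw
  obtain ⟨a, ha⟩ : ∃ a, a = P.i * X j * i' := ⟨_, rfl⟩
  obtain ⟨a', ha'⟩ : ∃ a', a' = i' * Y j * P.i * w := ⟨_, rfl⟩
  have haa : a * a' = P.i := by
    rw [← hTw, ha, ha']
    calc P.i * X j * i' * (i' * Y j * P.i * w)
        = P.i * X j * (i' * i') * Y j * P.i * w := by simp only [mul_assoc]
      _ = P.i * (X j * i' * Y j) * P.i * w := by rw [hi'i']; simp only [mul_assoc]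
  have hia : P.i * a = a := by rw [ha, ← mul_assoc, ← mul_assoc, P.hi]
  have hai' : a * i' = a := by rw [ha, mul_assoc, hi'i']
  have hi'a' : i' * a' = a' := by
    rw [ha', ← mul_assoc, ← mul_assoc, ← mul_assoc, hi'i']
  have ha'i : a' * P.i = a' := by rw [ha', mul_assoc, hwi]
  have hgi : of P.g0 * P.i = i' * of P.g0 := by
    rw [hi']; unfold cj
    rw [mul_assoc, of_inv_mul_of, mul_one]
  have hig : P.i * of P.g0⁻¹ = of P.g0⁻¹ * i' := by
    rw [hi']; unfold cj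
    rw [← mul_assoc, ← mul_assoc, of_inv_mul_of, one_mul]
  have h1 : P.i * (a * of P.g0) = a * of P.g0 := by rw [← mul_assoc, hia]
  have h2 : a * of P.g0 * P.i = a * of P.g0 := by rw [mul_assoc, hgi, ← mul_assoc, hai']
  have h3 : P.i * (of P.g0⁻¹ * a') = of P.g0⁻¹ * a' := by
    rw [← mul_assoc, hig, mul_assoc, hi'a']
  have h4 : of P.g0⁻¹ * a' * P.i = of P.g0⁻¹ * a' := by rw [mul_assoc, ha'i]
  have h5 : a * of P.g0 * (of P.g0⁻¹ * a') = P.i := by
    rw [mul_assoc, ← mul_assoc (of P.g0), of_mul_of_inv, one_mul, haa]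
  refine ⟨a * of P.g0, of P.g0⁻¹ * a', h1, h2, h3, h4, h5, ded (k := k) P.hi h1 h2 h3 h4 h5, ?_, ?_⟩
  · rw [mul_assoc, of_mul_of_inv, mul_one, ha]
    exact (P.hiC.mul (hXC j)).mul hi'C
  · rw [← mul_assoc, of_mul_of_inv, one_mul, ha']
    exact ((hi'C.mul (hYC j)).mul P.hiC).mul hwC

end Cfsg.Agent.Lib.Helper19.CY2
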