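import Mathlib
import Cfsg.Agent.Lib.Helper83.CY2S.Defs
import Cfsg.Agent.Lib.Helper19.CY2.UNIT
import Cfsg.Agent.Lib.Helper19.CY2.NE
import Cfsg.Agent.Lib.Helper19.CY2.COS
import Cfsg.Agent.Lib.Helper19.CY2.NORMS
import Cfsg.Agent.Lib.Helper19.CY2.NORMY

set_option autoImplicit false
set_option linter.unusedSectionVars false
set_option linter.unusedVariables false

/-! # Ladder CY2S: assembly `Pre ⇒ YS` -/

namespace Cfsg.Agent.Lib.Helper19.CY2

open Cfsg.Agent.Lib.Helper80 Cfsg.Agent.Lib.Helper80.GA Cfsg.Agent.Lib.Helper83.CY2S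
open scoped BigOperators

variable {k : Type*} {G : Type*} [Field k] [Group G] [Fintype G]
variable {p : ℕ} {b : GA k G} {e : ℕ}

theorem ysa_span_supp (P : Pre p b e) {n : ℕ} {x : GA k G}
    (hx : x ∈ Submodule.span k (Set.range fun a : Fin n => P.i * P.y0 ^ (a : ℕ))) :
    SuppOn P.C x := by
  induction hx using Submodule.span_induction with
  | mem x hx =>
    obtain ⟨a, rfl⟩ := hx
    exact P.hiC.mul (P.hy0C.pow _)
  | zero => exact SuppOn.zero
  | add x y _ _ hx hy => exact hx.add hy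
  | smul c x _ hx => exact hx.smul c

theorem exists_ys [IsAlgClosed k] [Fact p.Prime] [CharP k p] (P : Pre p b e) :
    Nonempty (YS P) := by
  classical
  obtain ⟨s0, t0, hs, hs', ht, ht', h1, h2, hsC, htC⟩ := unit0 P
  have hy00 := ne0 P
  have hnil : ∃ n, P.y0 ^ n = 0 := P.hnil
  obtain ⟨n, hn, hmin⟩ : ∃ n, P.y0 ^ n = 0 ∧ ∀ m < n, P.y0 ^ m ≠ 0 :=
    ⟨Nat.find hnil, Nat.find_spec hnil, fun m hm => Nat.find_min hnil hm⟩
  have h10 : (1 : GA k G) ≠ 0 := by
    intro h
    apply P.hi0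
    rw [← mul_one P.i, h, mul_zero]
  have hn2 : 2 ≤ n := by
    by_contra hlt
    have : n = 0 ∨ n = 1 := by omega
    rcases this with rfl | rfl
    · rw [pow_zero] at hn; exact h10 hn
    · rw [pow_one] at hn; exact hy00 hn
  have hipow : ∀ a, 1 ≤ a → P.i * P.y0 ^ a = P.y0 ^ a := by
    intro a ha
    obtain ⟨a, rfl⟩ : ∃ c, a = c + 1 := ⟨a - 1, by omega⟩
    rw [pow_succ', ← mul_assoc, P.hiy]
  have hne : P.i * P.y0 ^ (n - 1) ≠ 0 := by
    rw [hipow _ (by omega)]
    exact hmin _ (by omega)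
  have hL0 : L0 k P.i P.y0 ≤
      Submodule.span k (Set.range fun a : Fin n => P.i * P.y0 ^ (a : ℕ)) := by
    unfold L0
    rw [Submodule.span_le]
    rintro _ ⟨a, rfl⟩
    by_cases ha : a < n
    · exact Submodule.subset_span ⟨⟨a, ha⟩, rfl⟩
    · have : P.y0 ^ a = 0 := by
        obtain ⟨c, rfl⟩ : ∃ c, a = n + c := ⟨a - n, by omega⟩
        rw [pow_add, hn, zero_mul]
      simp only [this, mul_zero]
      exact Submodule.zero_mem _
  have hg0N : P.g0 ∈ P.N := P.hTN P.hg0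
  have hconj : s0 * P.y0 * t0 ∈
      Submodule.span k (Set.range fun a : Fin n => P.i * P.y0 ^ (a : ℕ)) := by
    have hsup : SuppOn P.C (s0 * P.y0 * t0) := by
      have h3 := (hsC.mul (ysa_supp_cj P hg0N P.hy0C)).mul htC
      have h4 : s0 * of P.g0⁻¹ * cj P.g0 P.y0 * (of P.g0 * t0) = s0 * P.y0 * t0 := by
        rw [cj]
        simp only [mul_assoc]
        rw [← mul_assoc (of P.g0⁻¹) (of P.g0) t0, of_inv_mul_of, one_mul,
          ← mul_assoc (of P.g0⁻¹) (of P.g0), of_inv_mul_of, one_mul]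
      rwa [h4] at h3
    have h5 := hL0 (P.hspan _ hsup)
    have h6 : P.i * (s0 * P.y0 * t0) * P.i = s0 * P.y0 * t0 := by
      rw [mul_assoc s0, ← mul_assoc P.i, hs, mul_assoc, mul_assoc, ht']
    rwa [h6] at h5
  have hse : s0 ^ e ∈
      Submodule.span k (Set.range fun a : Fin n => P.i * P.y0 ^ (a : ℕ)) := by
    have hsup : SuppOn P.C (s0 ^ e) := by
      have h3 := (ysa_cos P hsC e).mul (SuppOn.of (k := k) P.hg0e)
      rwa [mul_assoc, of_inv_mul_of, mul_one] at h3
    have h5 := hL0 (P.hspan _ hsup)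
    obtain ⟨e', rfl⟩ : ∃ c, e = c + 1 := ⟨e - 1, by have := P.he; omega⟩
    have h6 : P.i * s0 ^ (e' + 1) * P.i = s0 ^ (e' + 1) := by
      have h7 : s0 ^ (e' + 1) * P.i = s0 ^ (e' + 1) := by rw [pow_succ, mul_assoc, hs']
      rw [mul_assoc, h7, pow_succ', ← mul_assoc, hs]
    rwa [h6] at h5
  obtain ⟨y, chi, hiy, hyi, hyn, hyne, hspeq, hsy⟩ :=
    norm_y (F := k) P.i P.y0 s0 t0 n e P.hi P.hiy P.hyi (by omega) hn hne hs hs' ht ht' h1 h2
      hconj P.he P.hek hse
  obtain ⟨c, hc, hcs, hce⟩ :=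
    norm_s (F := k) p P.i P.y0 s0 t0 n e P.hi P.hiy P.hyi (by omega) hn hs hs' ht ht' h1 h2
      P.hi0 P.he P.hek hse
  have hymem : y ∈ Submodule.span k (Set.range fun a : Fin n => P.i * P.y0 ^ (a : ℕ)) := by
    rw [← hspeq]
    refine Submodule.subset_span ⟨⟨1, by omega⟩, ?_⟩
    simp only [pow_one, hiy]
  have hcomm : ∀ x ∈ Submodule.span k (Set.range fun a : Fin n => P.i * y ^ (a : ℕ)),
      x * y = y * x := by
    intro x hx
    induction hx using Submodule.span_induction with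
    | mem x hx =>
      obtain ⟨a, rfl⟩ := hx
      rw [← mul_assoc, hyi, mul_assoc, ← pow_succ, ← pow_succ', pow_succ', ← mul_assoc, hiy]
    | zero => rw [zero_mul, mul_zero]
    | add x x' _ _ hx hx' => rw [add_mul, mul_add, hx, hx']
    | smul a x _ hx => rw [smul_mul_assoc, mul_smul_comm, hx]
  have hcy : c * y = y * c := hcomm c (by rw [hspeq]; exact hc)
  exact ⟨{
    y := y
    s := s0 * c
    chi := chi
    n := n
    hyC := ysa_span_supp P hymem
    hiy := hiy
    hyi := hyi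
    hn := hn2
    hyn := hyn
    hyn1 := fun h => hyne (by rw [h, mul_zero])
    hsp := fun r hr => by rw [hspeq]; exact hL0 (P.hspan r hr)
    his := by rw [← mul_assoc, hs]
    hsi := by rw [hcs, mul_assoc, hs']
    hsC := by
      rw [hcs, mul_assoc]
      exact (ysa_span_supp P hc).mul hsC
    hse := hce
    hsy := by
      rw [mul_assoc, hcy, ← mul_assoc, hsy, smul_mul_assoc, mul_assoc] }⟩

end Cfsg.Agent.Lib.Helper19.CY2
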