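import Mathlib
import Cfsg.Agent.Lib.Helper83.CY2S.PRE
import Cfsg.Agent.Lib.Helper19.CY2.YSA
import Cfsg.Agent.Lib.Helper19.CY2.FIN
import Cfsg.Agent.Lib.Helper80.MTAlgClosed

set_option autoImplicit false
set_option linter.unusedSectionVars false

/-! # Ladder CY2: the local configuration exists -/

namespace Cfsg.Agent.Lib.Helper19.CY2

open Cfsg Cfsg.Agent.Lib.Helper80 Cfsg.Agent.Lib.Helper80.GA Cfsg.Agent.Lib.Helper83.CY2S

theorem exists_cfg {p : ℕ} {M : Ideal AlgInt} {G : Type*} [Group G] [Fintype G]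
    (hM : IsPModular p M) {B : Set (IrrCharacter G)} (hB : IsPBlock M B) {D : Subgroup G}
    (hPD : IsDefectGroup p M B D) (hcyc : IsCyclic D) (hD1 : D ≠ ⊥) {eD : GA (Kr hM) G}
    (hmax : IsMaxBP p (blkR hM B) D eD) :
    Nonempty (Cfg (blkR hM B) ((Cn D).relIndex (stabP D eD))) := by
  haveI : Fact p.Prime := ⟨hM.1⟩
  obtain ⟨P⟩ := exists_pre hM hB hPD hcyc hD1 hmax
  obtain ⟨Y⟩ := exists_ys P
  exact cfg_of_ys P Y

end Cfsg.Agent.Lib.Helper19.CY2
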