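import Mathlib
import Cfsg.Agent.Lib.Helper19.CY2.Defs

set_option autoImplicit false
set_option linter.unusedSectionVars false

universe u

namespace Cfsg.Agent.Lib.Helper19.CY2

open Cfsg.Agent.Lib.Helper80 Cfsg.Agent.Lib.Helper80.GA
open scoped BigOperators

variable {k : Type*} {G : Type*} [Field k] [Group G] [Fintype G]
variable {b : GA k G} {e : ℕ}

/-! ### EPS : the idempotents `eps C ω` (pure ring computations in `GA k G`) -/

theorem s_pow_mul_y (C : Cfg b e) (j : ℕ) : C.s ^ j * C.y = C.chi ^ j • (C.y * C.s ^ j) := by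
  induction j with
  | zero => simp
  | succ j ih =>
    rw [pow_succ', mul_assoc, ih, mul_smul_comm, ← mul_assoc, C.hsy, smul_mul_assoc, smul_smul,
      mul_assoc, ← pow_succ', ← pow_succ]

theorem s_mul_y_pow (C : Cfg b e) (a : ℕ) : C.s * C.y ^ a = C.chi ^ a • (C.y ^ a * C.s) := by
  induction a with
  | zero => simp
  | succ a ih =>
    rw [pow_succ, ← mul_assoc, ih, smul_mul_assoc, mul_assoc, C.hsy, mul_smul_comm, smul_smul,
      ← mul_assoc, ← pow_succ]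

theorem eps_y_ne_zero (C : Cfg b e) : C.y ≠ 0 := by
  have h := C.hind.ne_zero (⟨⟨1, by have := C.hn; omega⟩, ⟨0, C.he⟩⟩ : Fin C.n × Fin e)
  simpa [C.hiy] using h

theorem chi_pow (C : Cfg b e) : C.chi ^ e = 1 := by
  have h := s_pow_mul_y C e
  rw [C.hse, C.hiy, C.hyi] at h
  by_contra hne
  have h2 : (1 - C.chi ^ e) • C.y = 0 := by
    rw [sub_smul, one_smul, ← h, sub_self]
  rcases smul_eq_zero.1 h2 with h3 | h3
  · exact hne (sub_eq_zero.1 h3).symm
  · exact eps_y_ne_zero C h3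

theorem chi_ne_zero (C : Cfg b e) : C.chi ≠ 0 := by
  intro h
  have h1 := chi_pow C
  rw [h, zero_pow (by have := C.he; omega)] at h1
  exact zero_ne_one h1

theorem eps_i_mul_s_pow (C : Cfg b e) (j : ℕ) : C.i * (C.i * C.s ^ j) = C.i * C.s ^ j := by
  rw [← mul_assoc, C.hi]

theorem eps_comm_i_s_pow (C : Cfg b e) (j : ℕ) : C.s ^ j * C.i = C.i * C.s ^ j := by
  have h : Commute C.s C.i := by
    show C.s * C.i = C.i * C.s
    rw [C.hsi, C.his]
  exact (h.pow_left j)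

theorem i_mul_eps (C : Cfg b e) (ω : k) : C.i * eps C ω = eps C ω := by
  unfold eps
  rw [mul_smul_comm, Finset.mul_sum]
  congr 1
  refine Finset.sum_congr rfl (fun j _ => ?_)
  rw [mul_smul_comm, eps_i_mul_s_pow]

theorem eps_mul_i (C : Cfg b e) (ω : k) : eps C ω * C.i = eps C ω := by
  unfold eps
  rw [smul_mul_assoc, Finset.sum_mul]
  congr 1
  refine Finset.sum_congr rfl (fun j _ => ?_)
  rw [smul_mul_assoc, mul_assoc, eps_comm_i_s_pow, eps_i_mul_s_pow]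

theorem eps_suppOn (C : Cfg b e) (ω : k) : SuppOn C.N (eps C ω) := by
  unfold eps
  refine SuppOn.smul _ (SuppOn.sum _ _ (fun j _ => SuppOn.smul _ (C.hiN.mul (C.hsN.pow j))))

theorem eps_omega_ne_zero (C : Cfg b e) {ω : k} (hω : ω ^ e = 1) : ω ≠ 0 := by
  intro h
  rw [h, zero_pow (by have := C.he; omega)] at hω
  exact zero_ne_one hω

/-- the cyclic shift of the sum defining `eps` -/
theorem eps_shift (C : Cfg b e) {ω : k} (hω : ω ^ e = 1) :
    ∑ j ∈ Finset.range e, (ω⁻¹) ^ j • (C.i * C.s ^ (j + 1)) =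
      ω • ∑ j ∈ Finset.range e, (ω⁻¹) ^ j • (C.i * C.s ^ j) := by
  have hω0 := eps_omega_ne_zero C hω
  have h1 : ∀ j : ℕ, (ω⁻¹) ^ j • (C.i * C.s ^ (j + 1)) =
      ω • ((ω⁻¹) ^ (j + 1) • (C.i * C.s ^ (j + 1))) := by
    intro j
    rw [smul_smul, pow_succ (ω⁻¹), mul_comm ω, mul_assoc, inv_mul_cancel₀ hω0, mul_one]
  rw [Finset.sum_congr rfl (fun j _ => h1 j), ← Finset.smul_sum]
  congr 1
  have h2 := Finset.sum_range_succ (fun j => (ω⁻¹) ^ j • (C.i * C.s ^ j)) e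
  have h3 := Finset.sum_range_succ' (fun j => (ω⁻¹) ^ j • (C.i * C.s ^ j)) e
  rw [h2] at h3
  have h4 : (ω⁻¹) ^ e • (C.i * C.s ^ e) = (ω⁻¹) ^ 0 • (C.i * C.s ^ 0) := by
    rw [inv_pow, hω, C.hse, C.hi]
    simp
  rw [h4] at h3
  exact (add_right_cancel h3).symm

/-- reindex `j ↦ j + 1` cyclically, using `s^e = i`, `ω^e = 1`. -/
theorem s_mul_eps (C : Cfg b e) {ω : k} (hω : ω ^ e = 1) : C.s * eps C ω = ω • eps C ω := by
  unfold eps
  rw [mul_smul_comm, Finset.mul_sum, smul_comm ω, ← eps_shift C hω]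
  congr 1
  refine Finset.sum_congr rfl (fun j _ => ?_)
  rw [mul_smul_comm, ← mul_assoc, C.hsi, pow_succ', ← mul_assoc, C.his]

theorem eps_mul_s (C : Cfg b e) {ω : k} (hω : ω ^ e = 1) : eps C ω * C.s = ω • eps C ω := by
  unfold eps
  rw [smul_mul_assoc, Finset.sum_mul, smul_comm ω, ← eps_shift C hω]
  congr 1
  refine Finset.sum_congr rfl (fun j _ => ?_)
  rw [smul_mul_assoc, mul_assoc, ← pow_succ]

/-- `eps ω * y = y * eps (ω / chi)` -/
theorem eps_mul_y (C : Cfg b e) (ω : k) : eps C ω * C.y = C.y * eps C (ω * C.chi⁻¹) := by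
  unfold eps
  rw [smul_mul_assoc, Finset.sum_mul, mul_smul_comm, Finset.mul_sum]
  congr 1
  refine Finset.sum_congr rfl (fun j _ => ?_)
  rw [smul_mul_assoc, mul_smul_comm, mul_assoc, s_pow_mul_y, mul_smul_comm, ← mul_assoc C.i,
    C.hiy, ← mul_assoc C.y, C.hyi, smul_smul, mul_inv, inv_inv, mul_pow]

theorem eps_mul_y_pow (C : Cfg b e) (ω : k) (a : ℕ) :
    eps C ω * C.y ^ a = C.y ^ a * eps C (ω * (C.chi⁻¹) ^ a) := by
  induction a with
  | zero => simp
  | succ a ih =>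
    rw [pow_succ, ← mul_assoc, ih, mul_assoc, eps_mul_y, ← mul_assoc, pow_succ, mul_assoc ω]

section modules
variable {W : Type*} [AddCommGroup W] [Module (GA k G) W] [Module k W]
  [IsScalarTower k (GA k G) W]

theorem eps_s_pow_smul (C : Cfg b e) {ω : k} {v : W} (hi : C.i • v = v)
    (hs : C.s • v = ω • v) (j : ℕ) : (C.i * C.s ^ j) • v = ω ^ j • v := by
  have h : ∀ j : ℕ, C.s ^ j • v = ω ^ j • v := by
    intro j
    induction j with
    | zero => simp
    | succ j ih =>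
      rw [pow_succ, mul_smul, hs, smul_comm, ih, smul_smul, pow_succ, mul_comm]
  rw [mul_smul, h, smul_comm, hi]

theorem eps_smul_eq (C : Cfg b e) {ω ω₂ : k} {v : W} (hi : C.i • v = v)
    (hs : C.s • v = ω₂ • v) :
    eps C ω • v = ((e : k)⁻¹ * ∑ j ∈ Finset.range e, (ω⁻¹ * ω₂) ^ j) • v := by
  unfold eps
  rw [smul_assoc, Finset.sum_smul, mul_smul, Finset.sum_smul]
  congr 1
  refine Finset.sum_congr rfl (fun j _ => ?_)
  rw [smul_assoc, eps_s_pow_smul C hi hs, smul_smul, mul_pow]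

theorem eps_smul_self (C : Cfg b e) {ω : k} (hω : ω ^ e = 1) {v : W} (hi : C.i • v = v)
    (hs : C.s • v = ω • v) : eps C ω • v = v := by
  rw [eps_smul_eq C hi hs, inv_mul_cancel₀ (eps_omega_ne_zero C hω)]
  simp [inv_mul_cancel₀ C.hek]

/-- geometric sum `∑ (ω₂/ω)^j = 0`. -/
theorem eps_smul_other (C : Cfg b e) {ω ω₂ : k} (hω : ω ^ e = 1) (hω₂ : ω₂ ^ e = 1) (hne : ω₂ ≠ ω)
    {v : W} (hi : C.i • v = v) (hs : C.s • v = ω₂ • v) : eps C ω • v = 0 := by
  rw [eps_smul_eq C hi hs]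
  have hω0 := eps_omega_ne_zero C hω
  have h1 : ω⁻¹ * ω₂ - 1 ≠ 0 := by
    intro h
    apply hne
    have h2 : ω⁻¹ * ω₂ = 1 := sub_eq_zero.1 h
    field_simp at h2
    exact h2
  have h2 := geom_sum_mul (ω⁻¹ * ω₂) e
  rw [mul_pow, inv_pow, hω, hω₂, inv_one, one_mul, sub_self] at h2
  rcases mul_eq_zero.1 h2 with h3 | h3
  · rw [h3, mul_zero, zero_smul]
  · exact absurd h3 h1

end modules

end Cfsg.Agent.Lib.Helper19.CY2
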