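import Mathlib
import Cfsg.Agent.Lib.Helper19.CY2.Defs
import Cfsg.Agent.Lib.Helper19.CY2.EPS

set_option autoImplicit false
set_option linter.unusedSectionVars false

/-! Rung EXI of the ladder CY2: every `e`-th root of unity is a label of some `kGb`-module. -/

namespace Cfsg.Agent.Lib.Helper19.CY2

open Cfsg.Agent.Lib.Helper80 Cfsg.Agent.Lib.Helper80.GA
open scoped BigOperators

variable {k : Type*} {G : Type*} [Field k] [Group G] [Fintype G]
variable {b : GA k G} {e : ℕ}

theorem exi_trunc_mul {N : Subgroup G} (x : GA k G) {r : GA k G} (hr : SuppOn N r) :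
    trunc N (x * r) = trunc N x * r := by
  classical
  ext g
  by_cases hg : g ∈ N
  · rw [trunc_apply_mem _ hg, mul_apply, mul_apply]
    refine Finset.sum_congr rfl (fun z _ => ?_)
    by_cases hz : z ∈ N
    · rw [trunc_apply_mem _ hz]
    · rw [hr (z⁻¹ * g) (fun h => hz (by
        have := N.mul_mem hg (N.inv_mem h); simpa using this)), mul_zero, mul_zero]
  · rw [trunc_apply_not_mem _ hg, ((trunc_suppOn N x).mul hr) g hg]

theorem exi_mul_trunc {N : Subgroup G} (x : GA k G) {r : GA k G} (hr : SuppOn N r) :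
    trunc N (r * x) = r * trunc N x := by
  classical
  ext g
  by_cases hg : g ∈ N
  · rw [trunc_apply_mem _ hg, mul_apply, mul_apply]
    refine Finset.sum_congr rfl (fun z _ => ?_)
    by_cases hz : z ∈ N
    · rw [trunc_apply_mem _ (N.mul_mem (N.inv_mem hz) hg)]
    · rw [hr z hz, zero_mul, zero_mul]
  · rw [trunc_apply_not_mem _ hg, (hr.mul (trunc_suppOn N x)) g hg]

theorem exi_y_pow_mul_i (C : Cfg b e) {a : ℕ} (ha : 1 ≤ a) : C.y ^ a * C.i = C.y ^ a := by
  obtain ⟨a, rfl⟩ : ∃ a', a = a' + 1 := ⟨a - 1, by omega⟩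
  rw [pow_succ, mul_assoc, C.hyi]

theorem exi_i_mul_y_pow (C : Cfg b e) {a : ℕ} (ha : 1 ≤ a) : C.i * C.y ^ a = C.y ^ a := by
  obtain ⟨a, rfl⟩ : ∃ a', a = a' + 1 := ⟨a - 1, by omega⟩
  rw [pow_succ', ← mul_assoc, C.hiy]

theorem exi_ne_zero (C : Cfg b e) (ω' : k) : C.y ^ (C.n - 1) * eps C ω' ≠ 0 := by
  classical
  intro h0
  have hn1 : 1 ≤ C.n - 1 := by have := C.hn; omega
  have hlt : C.n - 1 < C.n := by have := C.hn; omega
  have hli := C.hind.comp (fun j : Fin e => ((⟨C.n - 1, hlt⟩, j) : Fin C.n × Fin e))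
    (fun j j' h => (Prod.ext_iff.1 h).2)
  have h1 : ∑ j : Fin e, ((e : k)⁻¹ * (ω'⁻¹) ^ (j : ℕ)) •
      (C.i * C.y ^ (C.n - 1) * C.s ^ (j : ℕ)) = 0 := by
    rw [← h0, eps, mul_smul_comm, Finset.mul_sum, Finset.smul_sum, Finset.sum_range]
    refine Finset.sum_congr rfl (fun j _ => ?_)
    rw [mul_smul_comm, smul_smul, ← mul_assoc, exi_y_pow_mul_i C hn1, exi_i_mul_y_pow C hn1]
  have h2 := Fintype.linearIndependent_iff.1 hli (fun j => (e : k)⁻¹ * (ω'⁻¹) ^ (j : ℕ)) h1
    ⟨0, C.he⟩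
  simp only [pow_zero, mul_one] at h2
  exact (inv_ne_zero C.hek) h2

theorem exi (C : Cfg b e) {ω : k} (hω : ω ^ e = 1) :
    ∃ U : Submodule (GA k G) (GA k G), (∀ w : U, b • w = w) ∧ Lab U C ω := by
  classical
  have hn1 : 1 ≤ C.n - 1 := by have := C.hn; omega
  obtain ⟨w, hw⟩ : ∃ w, w = C.y ^ (C.n - 1) * eps C (ω * (C.chi⁻¹) ^ (C.n - 1)) := ⟨_, rfl⟩
  have hw0 : w ≠ 0 := by rw [hw]; exact exi_ne_zero C _
  have hw2 : w = eps C ω * C.y ^ (C.n - 1) := by rw [hw, eps_mul_y_pow]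
  have hwN : SuppOn C.N w := by rw [hw]; exact (C.hyN.pow _).mul (eps_suppOn C _)
  have hiw : C.i * w = w := by rw [hw2, ← mul_assoc, i_mul_eps]
  have hyw : C.y * w = 0 := by
    rw [hw, ← mul_assoc, ← pow_succ', (by omega : C.n - 1 + 1 = C.n), C.hyn, zero_mul]
  have hsw : C.s * w = ω • w := by rw [hw2, ← mul_assoc, s_mul_eps C hω, smul_mul_assoc]
  have hbc : ∀ x, x * b = b * x := fun x =>
    commute_of_suppOn_fixBy (H := ⊤) (fun g hg => absurd (Subgroup.mem_top g) hg) C.hb.2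
  have hsj : ∀ j : ℕ, C.s ^ j * w = ω ^ j • w := by
    intro j
    induction j with
    | zero => simp
    | succ j ih => rw [pow_succ, mul_assoc, hsw, mul_smul_comm, ih, smul_smul, pow_succ']
  have hya : ∀ a : ℕ, 1 ≤ a → C.y ^ a * w = 0 := by
    intro a ha
    obtain ⟨a, rfl⟩ : ∃ a', a = a' + 1 := ⟨a - 1, by omega⟩
    rw [pow_succ, mul_assoc, hyw, mul_zero]
  have hkey : ∀ r, SuppOn C.N r → ∃ c : k, (C.i * r * C.i) * w = c • w := by
    intro r hr
    have hle : Submodule.span k (Set.range fun q : Fin C.n × Fin e =>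
        C.i * C.y ^ (q.1 : ℕ) * C.s ^ (q.2 : ℕ)) ≤
        (Submodule.span k {w}).comap (LinearMap.mulRight k w) := by
      rw [Submodule.span_le]
      rintro _ ⟨q, rfl⟩
      show (C.i * C.y ^ (q.1 : ℕ) * C.s ^ (q.2 : ℕ)) * w ∈ Submodule.span k {w}
      rw [mul_assoc, hsj, mul_smul_comm]
      apply Submodule.smul_mem
      by_cases ha : 1 ≤ (q.1 : ℕ)
      · rw [mul_assoc, hya _ ha, mul_zero]; exact Submodule.zero_mem _
      · have : (q.1 : ℕ) = 0 := by omega
        rw [this, pow_zero, mul_one, hiw]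
        exact Submodule.mem_span_singleton_self _
    have := hle (C.hspan r hr)
    obtain ⟨c, hc⟩ := Submodule.mem_span_singleton.1 this
    exact ⟨c, hc.symm⟩
  refine ⟨Submodule.span (GA k G) {b * w}, ?_, ?_⟩
  · rintro ⟨u, hu⟩
    obtain ⟨a, rfl⟩ := Submodule.mem_span_singleton.1 hu
    apply Subtype.ext
    show b * (a * (b * w)) = a * (b * w)
    rw [← mul_assoc, ← hbc a, mul_assoc, ← mul_assoc b b, C.hbb]
  · refine ⟨⟨b * w, Submodule.mem_span_singleton_self _⟩, ?_, ?_, ?_, ?_⟩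
    · apply Subtype.ext
      show C.i * (b * w) = b * w
      rw [← mul_assoc, hbc, mul_assoc, hiw]
    · apply Subtype.ext
      show C.y * (b * w) = 0
      rw [← mul_assoc, hbc, mul_assoc, hyw, mul_zero]
    · apply Subtype.ext
      show C.s * (b * w) = ω • (b * w)
      rw [← mul_assoc, hbc, mul_assoc, hsw, mul_smul_comm]
    · rintro ⟨⟨u, hu⟩, huv⟩
      obtain ⟨a, rfl⟩ := Submodule.mem_span_singleton.1 hu
      have h1 : b * w = C.y ^ (C.n - 1) * (a * (b * w)) := congrArg Subtype.val huv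
      have h2 : trunc C.N b * w = C.y ^ (C.n - 1) * (trunc C.N (a * b) * w) := by
        rw [← exi_trunc_mul _ hwN, ← exi_trunc_mul _ hwN, ← exi_mul_trunc _ (C.hyN.pow _),
          mul_assoc a, ← h1]
      obtain ⟨c, hc⟩ := hkey C.lam C.hlam
      obtain ⟨c', hc'⟩ := hkey (trunc C.N (a * b)) (trunc_suppOn _ _)
      have h3 : C.i * (trunc C.N b * w) = w := by
        calc C.i * (trunc C.N b * w) = (C.i * trunc C.N b * C.i) * w := by
              conv_lhs => rw [← hiw]
              simp only [mul_assoc]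
          _ = w + C.y * ((C.i * C.lam * C.i) * w) := by
              rw [C.hE, add_mul, hiw, mul_assoc]
          _ = w := by rw [hc, mul_smul_comm, hyw, smul_zero, add_zero]
      have h4 : C.y ^ (C.n - 1) * (trunc C.N (a * b) * w) = 0 := by
        calc C.y ^ (C.n - 1) * (trunc C.N (a * b) * w)
            = C.y ^ (C.n - 1) * ((C.i * trunc C.N (a * b) * C.i) * w) := by
              conv_lhs => rw [← hiw, ← exi_y_pow_mul_i C hn1]
              simp only [mul_assoc]
          _ = 0 := by rw [hc', mul_smul_comm, hya _ hn1, smul_zero]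
      apply hw0
      rw [← h3, h2, h4, mul_zero]

end Cfsg.Agent.Lib.Helper19.CY2
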