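import Mathlib

set_option autoImplicit false
set_option linter.unusedSectionVars false

/-! Ladder CY2 (helper19), rung ROOTS (helper86). -/

namespace Cfsg.Agent.Lib.Helper19.CY2

variable {k : Type*} [Field k]

theorem roots [IsAlgClosed k] {e : ℕ} (he : 0 < e) (hek : (e : k) ≠ 0) :
    ∃ z : Fin e → k, Function.Injective z ∧ ∀ j, z j ^ e = 1 := by
  have : NeZero (e : k) := ⟨hek⟩
  obtain ⟨ζ, hζ⟩ := HasEnoughRootsOfUnity.exists_primitiveRoot k e
  refine ⟨fun j => ζ ^ (j : ℕ), ?_, ?_⟩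
  · intro i j hij
    exact Fin.ext (hζ.pow_inj i.2 j.2 hij)
  · intro j
    rw [← pow_mul, mul_comm, pow_mul, hζ.pow_eq_one, one_pow]

end Cfsg.Agent.Lib.Helper19.CY2
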