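import Mathlib
import Cfsg.Agent.Lib.Helper19.CY2.Defs
import Cfsg.Agent.Lib.Helper19.CY2.EPS

set_option autoImplicit false
set_option linter.unusedSectionVars false

/-! Ladder CY2 (helper19), rung HEX (helper86): half exactness of labels. -/

namespace Cfsg.Agent.Lib.Helper19.CY2

open Cfsg.Agent.Lib.Helper80 Cfsg.Agent.Lib.Helper80.GA
open scoped BigOperators

variable {k : Type*} {G : Type*} [Field k] [Group G] [Fintype G]
variable {b : GA k G} {e : ℕ}

section modules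
variable {W : Type*} [AddCommGroup W] [Module (GA k G) W] [Module k W]
  [IsScalarTower k (GA k G) W]

theorem hex (C : Cfg b e) {ω : k} (hω : ω ^ e = 1) (W₁ : Submodule (GA k G) W)
    (h1 : ¬ Lab W₁ C ω) (h2 : ¬ Lab (W ⧸ W₁) C ω) : ¬ Lab W C ω := by
  rintro ⟨v, hiv, hyv, hsv, hnot⟩
  -- the image in the quotient
  have hq : ∃ cb : W ⧸ W₁, (Submodule.Quotient.mk v : W ⧸ W₁) = C.y ^ (C.n - 1) • cb := by
    by_contra hcon
    apply h2
    refine ⟨Submodule.Quotient.mk v, ?_, ?_, ?_, hcon⟩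
    · rw [← Submodule.Quotient.mk_smul, hiv]
    · rw [← Submodule.Quotient.mk_smul, hyv, Submodule.Quotient.mk_zero]
    · rw [← Submodule.Quotient.mk_smul, hsv, Submodule.Quotient.mk_smul]
  obtain ⟨cbar, hc⟩ := hq
  obtain ⟨c, rfl⟩ := Submodule.Quotient.mk_surjective W₁ cbar
  rw [← Submodule.Quotient.mk_smul, Submodule.Quotient.eq] at hc
  set c' : W := eps C (ω * (C.chi⁻¹) ^ (C.n - 1)) • c with hc'
  have ha : eps C ω • (v - C.y ^ (C.n - 1) • c) = v - C.y ^ (C.n - 1) • c' := by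
    rw [smul_sub, eps_smul_self C hω hiv hsv, smul_smul, eps_mul_y_pow, ← smul_smul]
  have haW : v - C.y ^ (C.n - 1) • c' ∈ W₁ := by
    rw [← ha]
    exact W₁.smul_mem _ hc
  have hyn : C.y * C.y ^ (C.n - 1) = 0 := by
    rw [← pow_succ', Nat.sub_add_cancel (by have := C.hn; omega), C.hyn]
  have hd : ∃ d : W₁, (⟨v - C.y ^ (C.n - 1) • c', haW⟩ : W₁) = C.y ^ (C.n - 1) • d := by
    by_contra hcon
    apply h1
    refine ⟨⟨v - C.y ^ (C.n - 1) • c', haW⟩, ?_, ?_, ?_, hcon⟩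
    · apply Subtype.ext
      change C.i • (v - C.y ^ (C.n - 1) • c') = v - C.y ^ (C.n - 1) • c'
      rw [← ha, smul_smul, i_mul_eps]
    · apply Subtype.ext
      change C.y • (v - C.y ^ (C.n - 1) • c') = 0
      rw [smul_sub, hyv, smul_smul, hyn, zero_smul, sub_zero]
    · apply Subtype.ext
      change C.s • (v - C.y ^ (C.n - 1) • c') = ω • (v - C.y ^ (C.n - 1) • c')
      rw [← ha, smul_smul, s_mul_eps C hω, smul_assoc]
  obtain ⟨d, hd⟩ := hd
  apply hnot
  refine ⟨(d : W) + c', ?_⟩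
  have hd' : v - C.y ^ (C.n - 1) • c' = C.y ^ (C.n - 1) • (d : W) := congrArg Subtype.val hd
  rw [smul_add, ← hd', sub_add_cancel]

end modules

end Cfsg.Agent.Lib.Helper19.CY2
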