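import Mathlib
import Cfsg.Agent.Lib.Helper19.CY2.Defs
import Cfsg.Agent.Lib.Helper19.CY2.HEX

set_option autoImplicit false
set_option linter.unusedSectionVars false

/-! Ladder CY2 (helper19), rung SIMP (helper86): a label is visible on a simple subquotient. -/

universe u

namespace Cfsg.Agent.Lib.Helper19.CY2

open Cfsg.Agent.Lib.Helper80 Cfsg.Agent.Lib.Helper80.GA
open scoped BigOperators

variable {k : Type*} {G : Type*} [Field k] [Group G] [Fintype G]
variable {b : GA k G} {e : ℕ}

theorem simp_not_lab_of_subsingleton {W : Type*} [AddCommGroup W] [Module (GA k G) W] [Module k W]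
    [IsScalarTower k (GA k G) W] [Subsingleton W] (C : Cfg b e) (ω : k) : ¬ Lab W C ω := by
  rintro ⟨v, -, -, -, hnot⟩
  exact hnot ⟨0, Subsingleton.elim _ _⟩

theorem simp_lab {G : Type u} [Group G] [Fintype G] {b : GA k G} (C : Cfg b e) {ω : k}
    (hω : ω ^ e = 1) :
    ∀ (n : ℕ) (W : Type u) [AddCommGroup W] [Module (GA k G) W] [Module k W]
      [IsScalarTower k (GA k G) W] [Module.Finite k W], Module.finrank k W ≤ n →
      (∀ w : W, b • w = w) → Lab W C ω →
      ∃ (S : Type u) (_ : AddCommGroup S) (_ : Module (GA k G) S) (_ : Module k S)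
        (_ : IsScalarTower k (GA k G) S) (_ : Module.Finite k S),
        IsSimpleModule (GA k G) S ∧ (∀ w : S, b • w = w) ∧ Lab S C ω := by
  intro n
  induction n with
  | zero =>
    intro W _ _ _ _ _ hn hbW hT
    exfalso
    have : Subsingleton W := Module.finrank_zero_iff.1 (Nat.le_zero.1 hn)
    exact simp_not_lab_of_subsingleton C ω hT
  | succ n ih =>
    intro W _ _ _ _ _ hn hbW hT
    by_cases hs : IsSimpleModule (GA k G) W
    · exact ⟨W, inferInstance, inferInstance, inferInstance, inferInstance, inferInstance, hs,
        hbW, hT⟩
    · have hnt : Nontrivial W := by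
        by_contra h
        rw [not_nontrivial_iff_subsingleton] at h
        exact simp_not_lab_of_subsingleton C ω hT
      obtain ⟨W', hb, ht⟩ : ∃ W' : Submodule (GA k G) W, W' ≠ ⊥ ∧ W' ≠ ⊤ := by
        by_contra hcon
        push Not at hcon
        apply hs
        rw [isSimpleModule_iff]
        exact { exists_pair_ne := ⟨⊥, ⊤, bot_ne_top⟩
                eq_bot_or_eq_top := fun a => by
                  by_cases ha : a = ⊥
                  · exact Or.inl ha
                  · exact Or.inr (hcon a ha) }
      have hfin1 : Module.Finite k W' :=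
        Module.Finite.of_injective (W'.subtype.restrictScalars k) Subtype.val_injective
      have hfin2 : Module.Finite k (W ⧸ W') :=
        Module.Finite.of_surjective (W'.mkQ.restrictScalars k) (Submodule.mkQ_surjective W')
      have hsum : Module.finrank k (W ⧸ W') + Module.finrank k W' = Module.finrank k W :=
        Submodule.finrank_quotient_add_finrank (W'.restrictScalars k)
      have hpos1 : 0 < Module.finrank k W' := by
        have : Nontrivial W' := Submodule.nontrivial_iff_ne_bot.2 hb
        exact Module.finrank_pos
      have hpos2 : 0 < Module.finrank k (W ⧸ W') := by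
        have : Nontrivial (W ⧸ W') := Submodule.Quotient.nontrivial_iff.2 ht
        exact Module.finrank_pos
      have hb1 : ∀ w : W', b • w = w := by
        intro w
        apply Subtype.ext
        rw [Submodule.coe_smul, hbW]
      have hb2 : ∀ w : W ⧸ W', b • w = w := by
        intro w
        obtain ⟨w, rfl⟩ := Submodule.Quotient.mk_surjective W' w
        rw [← Submodule.Quotient.mk_smul, hbW]
      by_cases h1 : Lab W' C ω
      · exact ih W' (by omega) hb1 h1
      · have h2 : Lab (W ⧸ W') C ω := by
          by_contra h2
          exact hex C hω W' h1 h2 hT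
        exact ih (W ⧸ W') (by omega) hb2 h2

end Cfsg.Agent.Lib.Helper19.CY2
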