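import Mathlib
import Cfsg.Agent.Lib.Helper19.CY2.Defs
import Cfsg.Agent.Lib.Helper19.CY2.EPS

set_option autoImplicit false
set_option linter.unusedSectionVars false

universe u

namespace Cfsg.Agent.Lib.Helper19.CY2

open Cfsg.Agent.Lib.Helper80 Cfsg.Agent.Lib.Helper80.GA
open scoped BigOperators

variable {k : Type*} {G : Type*} [Field k] [Group G] [Fintype G]
variable {b : GA k G} {e : ℕ}

section modules
variable {W : Type*} [AddCommGroup W] [Module (GA k G) W] [Module k W]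
  [IsScalarTower k (GA k G) W]

/-! ### LAP : the endomorphism `π` of `i W` attached to a label vector -/

/-- left multiplication as a `k`-linear map -/
noncomputable def lapL (a : GA k G) : W →ₗ[k] W where
  toFun w := a • w
  map_add' := smul_add a
  map_smul' c w := smul_comm a c w

@[simp] theorem lapL_apply (a : GA k G) (w : W) : lapL a w = a • w := rfl

theorem lap_comm_i_y_pow (C : Cfg b e) (m : ℕ) : C.y ^ m * C.i = C.i * C.y ^ m := by
  have h : Commute C.y C.i := by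
    show C.y * C.i = C.i * C.y
    rw [C.hyi, C.hiy]
  exact h.pow_left m

theorem lap_y_pow_mul_s (C : Cfg b e) (m : ℕ) :
    C.y ^ m * C.s = (C.chi⁻¹) ^ m • (C.s * C.y ^ m) := by
  rw [s_mul_y_pow, smul_smul, ← mul_pow, inv_mul_cancel₀ (chi_ne_zero C), one_pow, one_smul]

/-- the abstract construction, from the normalised data -/
theorem lap_aux (C : Cfg b e) (v v₁ : W) (ω : k) (L : ℕ) (f : W →ₗ[k] k)
    (hyv : C.y • v = 0) (hv1 : C.y ^ L • v₁ = v) (hiv1 : C.i • v₁ = v₁)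
    (hsv1 : C.s • v₁ = (ω * (C.chi⁻¹) ^ L) • v₁)
    (hfy : ∀ w, f (C.y ^ (L + 1) • w) = 0) (hfs : ∀ w, f (C.s • w) = ω * f w)
    (hfi : ∀ w, f (C.i • w) = f w) :
    ∃ π : W →ₗ[k] W, (∀ w, π (C.i • w) = π w) ∧ (∀ w, C.i • π w = π w) ∧
      (∀ w, π (C.y • w) = C.y • π w) ∧ (∀ w, π (C.s • w) = C.s • π w) ∧
      ∀ u, C.y • u = 0 → π u = f u • v := by
  let π : W →ₗ[k] W := ∑ a ∈ Finset.range (L + 1),
    (f.comp (lapL (C.y ^ (L - a)))).smulRight (C.y ^ a • v₁)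
  have hπ : ∀ w, π w = ∑ a ∈ Finset.range (L + 1), f (C.y ^ (L - a) • w) • (C.y ^ a • v₁) := by
    intro w
    simp [π, LinearMap.sum_apply]
  refine ⟨π, ?_, ?_, ?_, ?_, ?_⟩
  · intro w
    rw [hπ, hπ]
    refine Finset.sum_congr rfl (fun a _ => ?_)
    rw [smul_smul, lap_comm_i_y_pow, mul_smul, hfi]
  · intro w
    rw [hπ, Finset.smul_sum]
    refine Finset.sum_congr rfl (fun a _ => ?_)
    rw [smul_comm, smul_smul C.i, ← lap_comm_i_y_pow, mul_smul, hiv1]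
  · intro w
    rw [hπ, hπ, Finset.smul_sum, Finset.sum_range_succ', Finset.sum_range_succ]
    have h1 : f (C.y ^ (L - 0) • C.y • w) = 0 := by
      rw [smul_smul, Nat.sub_zero, ← pow_succ, hfy]
    have h2 : C.y • f (C.y ^ (L - L) • w) • C.y ^ L • v₁ = 0 := by
      rw [hv1, smul_comm, hyv, smul_zero]
    rw [h1, h2, zero_smul, add_zero, add_zero]
    refine Finset.sum_congr rfl (fun a ha => ?_)
    have ha' : a < L := Finset.mem_range.1 ha
    have h3 : L - a = L - (a + 1) + 1 := by omega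
    rw [smul_comm C.y, smul_smul C.y, ← pow_succ', smul_smul (C.y ^ (L - (a + 1))), ← pow_succ, ← h3]
  · intro w
    rw [hπ, hπ, Finset.smul_sum]
    refine Finset.sum_congr rfl (fun a ha => ?_)
    have ha' : a ≤ L := Nat.lt_succ_iff.1 (Finset.mem_range.1 ha)
    have e1 : f (C.y ^ (L - a) • C.s • w) =
        (C.chi⁻¹) ^ (L - a) * (ω * f (C.y ^ (L - a) • w)) := by
      rw [smul_smul, lap_y_pow_mul_s, smul_assoc, map_smul, smul_eq_mul, mul_smul, hfs]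
    have e2 : C.s • C.y ^ a • v₁ = (C.chi ^ a * (ω * (C.chi⁻¹) ^ L)) • (C.y ^ a • v₁) := by
      rw [smul_smul, s_mul_y_pow, smul_assoc, mul_smul (C.y ^ a) C.s, hsv1, smul_comm (C.y ^ a),
        smul_smul]
    rw [e1, smul_comm C.s, e2, smul_smul]
    congr 1
    have h4 : (C.chi⁻¹) ^ L = (C.chi⁻¹) ^ (L - a) * (C.chi⁻¹) ^ a := by
      rw [← pow_add]
      congr 1
      omega
    have h5 : C.chi ^ a * (C.chi⁻¹) ^ a = 1 := by
      rw [← mul_pow, mul_inv_cancel₀ (chi_ne_zero C), one_pow]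
    rw [h4]
    calc C.chi⁻¹ ^ (L - a) * (ω * f (C.y ^ (L - a) • w))
        = f (C.y ^ (L - a) • w) * (1 * (ω * C.chi⁻¹ ^ (L - a))) := by ring
      _ = f (C.y ^ (L - a) • w) * (C.chi ^ a * (ω * (C.chi⁻¹ ^ (L - a) * C.chi⁻¹ ^ a))) := by
          rw [← h5]; ring
  · intro u hu
    rw [hπ, Finset.sum_range_succ, Nat.sub_self, pow_zero, one_smul, hv1, Finset.sum_eq_zero,
      zero_add]
    intro a ha
    have ha' : a < L := Finset.mem_range.1 ha
    have h3 : L - a = L - (a + 1) + 1 := by omega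
    rw [h3, pow_succ, mul_smul, hu, smul_zero, map_zero, zero_smul]

/-- Let `ℓ ≥ 1` be maximal with `v ∈ y^(ℓ-1) W` (`ℓ ≤ n-1` by `hnot`); `v = y^(ℓ-1) v₁`; replace `v₁` by
`eps (ω chi^-(ℓ-1)) v₁` (still `y^(ℓ-1) v₁ = eps ω v = v`), so `i v₁ = v₁`, `s v₁ = ω chi^-(ℓ-1) v₁`.
Choose a linear form `f₀` with `f₀ v = 1`, `f₀ = 0` on `y^ℓ W`; `f w := f₀ (eps ω w)`; then `f v = 1`,
`f (y^ℓ w) = 0`, `f (s w) = ω f w`, `f (i w) = f w`.
`π w := ∑_{a<ℓ} f (y^(ℓ-1-a) w) • y^a v₁`. -/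
theorem lap (C : Cfg b e) (v : W) (ω : k) (hω : ω ^ e = 1) (hiv : C.i • v = v)
    (hyv : C.y • v = 0) (hsv : C.s • v = ω • v) (hnot : ¬ ∃ w : W, v = C.y ^ (C.n - 1) • w) :
    ∃ π : W →ₗ[k] W, (∀ w, π (C.i • w) = π w) ∧ (∀ w, C.i • π w = π w) ∧
      (∀ w, π (C.y • w) = C.y • π w) ∧ (∀ w, π (C.s • w) = C.s • π w) ∧ π v = v ∧
      ∀ (v₂ : W) (ω₂ : k), ω₂ ^ e = 1 → ω₂ ≠ ω → C.i • v₂ = v₂ → C.y • v₂ = 0 →
        C.s • v₂ = ω₂ • v₂ → π v₂ = 0 := by
  classical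
  -- the maximal exponent
  have hex : ∃ m : ℕ, ¬ ∃ w : W, v = C.y ^ m • w := ⟨C.n - 1, hnot⟩
  obtain ⟨L, hL⟩ : ∃ L, Nat.find hex = L + 1 := by
    refine Nat.exists_eq_succ_of_ne_zero ?_
    intro h0
    have := Nat.find_spec hex
    rw [h0] at this
    exact this ⟨v, by simp⟩
  have hL1 : ¬ ∃ w : W, v = C.y ^ (L + 1) • w := by
    have := Nat.find_spec hex
    rwa [hL] at this
  obtain ⟨v₀, hv₀⟩ : ∃ w : W, v = C.y ^ L • w := by
    have := Nat.find_min hex (m := L) (by omega)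
    exact not_not.1 this
  -- the linear form
  have hvU : v ∉ LinearMap.range (lapL (C.y ^ (L + 1)) : W →ₗ[k] W) := by
    rintro ⟨w, hw⟩
    exact hL1 ⟨w, hw.symm⟩
  obtain ⟨f₁, hf₁v, hf₁U⟩ := Submodule.exists_le_ker_of_notMem hvU
  let f : W →ₗ[k] k := ((f₁ v)⁻¹ • f₁).comp (lapL (eps C ω))
  have hf : ∀ w, f w = (f₁ v)⁻¹ * f₁ (eps C ω • w) := by
    intro w
    simp [f]
  have hω' : (ω * (C.chi⁻¹) ^ L) ^ e = 1 := by
    rw [mul_pow, hω, one_mul, ← pow_mul, mul_comm L, pow_mul, inv_pow, chi_pow, inv_one, one_pow]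
  obtain ⟨π, p1, p2, p3, p4, p5⟩ := lap_aux C v (eps C (ω * (C.chi⁻¹) ^ L) • v₀) ω L f hyv
    (by rw [smul_smul, ← eps_mul_y_pow, mul_smul, ← hv₀, eps_smul_self C hω hiv hsv])
    (by rw [smul_smul, i_mul_eps])
    (by rw [smul_smul, s_mul_eps C hω', smul_assoc])
    (by
      intro w
      rw [hf, smul_smul, eps_mul_y_pow, mul_smul]
      have : C.y ^ (L + 1) • eps C (ω * (C.chi⁻¹) ^ (L + 1)) • w ∈ LinearMap.ker f₁ :=
        hf₁U ⟨_, rfl⟩
      rw [LinearMap.mem_ker.1 this, mul_zero])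
    (by
      intro w
      rw [hf, hf, smul_smul, eps_mul_s C hω, smul_assoc, map_smul, smul_eq_mul]
      ring)
    (by
      intro w
      rw [hf, hf, smul_smul, eps_mul_i])
  refine ⟨π, p1, p2, p3, p4, ?_, ?_⟩
  · rw [p5 v hyv, hf, eps_smul_self C hω hiv hsv, inv_mul_cancel₀ hf₁v, one_smul]
  · intro v₂ ω₂ hω₂ hne hiv₂ hyv₂ hsv₂
    rw [p5 v₂ hyv₂, hf, eps_smul_other C hω hω₂ hne hiv₂ hsv₂, map_zero, mul_zero, zero_smul]

end modules

end Cfsg.Agent.Lib.Helper19.CY2
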