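import Mathlib
import Cfsg.Agent.Lib.Helper19.CY2.Defs

set_option autoImplicit false
set_option linter.unusedSectionVars false

/-! Rung MOR of the ladder CY2: Morita extension of an `i kN i`-linear map to a `kN`-linear map. -/

namespace Cfsg.Agent.Lib.Helper19.CY2

open Cfsg.Agent.Lib.Helper80 Cfsg.Agent.Lib.Helper80.GA
open scoped BigOperators

variable {k : Type*} {G : Type*} [Field k] [Group G] [Fintype G]
variable {b : GA k G} {e : ℕ}

section modules
variable {W : Type*} [AddCommGroup W] [Module (GA k G) W] [Module k W]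
  [IsScalarTower k (GA k G) W]
variable {W' : Type*} [AddCommGroup W'] [Module (GA k G) W'] [Module k W']
  [IsScalarTower k (GA k G) W']

/-- the elements of the group algebra commuting with `π` -/
def mor_Z (π : W →ₗ[k] W') : Submodule k (GA k G) where
  carrier := {x | ∀ w, π (x • w) = x • π w}
  add_mem' := by
    intro x y hx hy w
    rw [add_smul, add_smul, map_add, hx, hy]
  zero_mem' := by
    intro w
    rw [zero_smul, zero_smul, map_zero]
  smul_mem' := by
    intro c x hx w
    rw [smul_assoc, smul_assoc, map_smul, hx]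

theorem mor_mem_Z {π : W →ₗ[k] W'} {x : GA k G} :
    x ∈ mor_Z π ↔ ∀ w, π (x • w) = x • π w := Iff.rfl

theorem mor_Z_mul {π : W →ₗ[k] W'} {x y : GA k G} (hx : x ∈ mor_Z π) (hy : y ∈ mor_Z π) :
    x * y ∈ mor_Z π := by
  intro w
  rw [mul_smul, mul_smul, hx, hy]

theorem mor_Z_pow {π : W →ₗ[k] W'} {x : GA k G} (hx : x ∈ mor_Z π) (n : ℕ) :
    x ^ n ∈ mor_Z π := by
  induction n with
  | zero => intro w; rw [pow_zero, one_smul, one_smul]
  | succ n ih => rw [pow_succ]; exact mor_Z_mul ih hx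

theorem mor (C : Cfg b e) (π : W →ₗ[k] W') (h1 : ∀ w, π (C.i • w) = π w)
    (h2 : ∀ w, C.i • π w = π w) (h3 : ∀ w, π (C.y • w) = C.y • π w)
    (h4 : ∀ w, π (C.s • w) = C.s • π w) :
    ∃ σ : W →ₗ[k] W', (∀ g ∈ C.N, ∀ w, σ ((of g : GA k G) • w) = (of g : GA k G) • σ w) ∧
      (∀ w, C.ee • σ w = σ w) ∧ ∀ w, C.i • w = w → σ w = π w := by
  classical
  have hiZ : C.i ∈ mor_Z π := fun w => by rw [h1, h2]
  have hyZ : C.y ∈ mor_Z π := h3
  have hsZ : C.s ∈ mor_Z π := h4
  have hZ : ∀ r, SuppOn C.N r → C.i * r * C.i ∈ mor_Z π := by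
    intro r hr
    have hle : Submodule.span k (Set.range fun q : Fin C.n × Fin e =>
        C.i * C.y ^ (q.1 : ℕ) * C.s ^ (q.2 : ℕ)) ≤ mor_Z π := by
      rw [Submodule.span_le]
      rintro _ ⟨q, rfl⟩
      exact mor_Z_mul (mor_Z_mul hiZ (mor_Z_pow hyZ _)) (mor_Z_pow hsZ _)
    exact hle (C.hspan r hr)
  have hcen : ∀ r, SuppOn C.N r → r * C.ee = C.ee * r := fun r hr =>
    commute_of_suppOn_fixBy hr C.hee.2
  let σ : W →ₗ[k] W' := ∑ j, (Algebra.lsmul k k W' (C.aa j * C.i)) ∘ₗ π ∘ₗ
    (Algebra.lsmul k k W (C.bb j))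
  have hσa : ∀ w, σ w = ∑ j, (C.aa j * C.i) • π (C.bb j • w) := fun w => by
    simp only [σ, LinearMap.sum_apply]
    rfl
  refine ⟨σ, ?_, ?_, ?_⟩
  · intro g hg w
    have hr : SuppOn C.N (of g : GA k G) := SuppOn.of hg
    rw [hσa, hσa, Finset.smul_sum]
    -- expand each term
    have key : ∀ j, π (C.bb j • (of g : GA k G) • w)
        = ∑ l, (C.i * (C.bb j * of g * C.aa l) * C.i) • π (C.bb l • w) := by
      intro j
      have e1 : C.i * (C.bb j * of g)
          = ∑ l, (C.i * (C.bb j * of g * C.aa l) * C.i) * C.bb l := by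
        have : C.i * (C.bb j * of g) = C.i * (C.bb j * of g) * C.ee := by
          rw [mul_assoc C.i _ C.ee, hcen _ ((C.hbbN j).mul hr), ← mul_assoc C.i C.ee, C.hie]
        rw [this, ← C.hsum, Finset.mul_sum]
        refine Finset.sum_congr rfl (fun l _ => ?_)
        simp only [mul_assoc]
      rw [← h1, smul_smul, smul_smul, mul_assoc C.i, e1, Finset.sum_smul, map_sum]
      refine Finset.sum_congr rfl (fun l _ => ?_)
      rw [mul_smul, hZ _ (((C.hbbN j).mul hr).mul (C.haa l))]
    calc ∑ j, (C.aa j * C.i) • π (C.bb j • (of g : GA k G) • w)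
        = ∑ j, ∑ l, ((C.aa j * C.i * C.bb j) * (of g * C.aa l * C.i)) • π (C.bb l • w) := by
          refine Finset.sum_congr rfl (fun j _ => ?_)
          rw [key, Finset.smul_sum]
          refine Finset.sum_congr rfl (fun l _ => ?_)
          rw [smul_smul]
          congr 1
          have : C.aa j * C.i * (C.i * (C.bb j * of g * C.aa l) * C.i)
              = C.aa j * (C.i * C.i) * (C.bb j * of g * C.aa l) * C.i := by
            simp only [mul_assoc]
          rw [this, C.hi]
          simp only [mul_assoc]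
      _ = ∑ l, (C.ee * (of g * C.aa l * C.i)) • π (C.bb l • w) := by
          rw [Finset.sum_comm]
          refine Finset.sum_congr rfl (fun l _ => ?_)
          rw [← Finset.sum_smul, ← Finset.sum_mul, C.hsum]
      _ = ∑ l, (of g : GA k G) • (C.aa l * C.i) • π (C.bb l • w) := by
          refine Finset.sum_congr rfl (fun l _ => ?_)
          rw [smul_smul]
          congr 1
          rw [← mul_assoc, ← hcen _ (hr.mul (C.haa l)), mul_assoc, C.hei, mul_assoc]
  · intro w
    rw [hσa, Finset.smul_sum]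
    refine Finset.sum_congr rfl (fun j _ => ?_)
    rw [smul_smul, ← mul_assoc, ← hcen _ (C.haa j), mul_assoc, C.hei]
  · intro w hw
    rw [hσa]
    have : ∀ j, (C.aa j * C.i) • π (C.bb j • w) = (C.aa j * C.i * C.bb j) • π w := by
      intro j
      have e2 : π (C.bb j • w) = (C.i * C.bb j * C.i) • π w := by
        rw [← hZ _ (C.hbbN j), mul_smul, hw, mul_smul, h1]
      rw [e2, smul_smul]
      have e3 : C.aa j * C.i * (C.i * C.bb j * C.i) = C.aa j * (C.i * C.i) * C.bb j * C.i := by
        simp only [mul_assoc]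
      rw [e3, C.hi, mul_smul, h2]
    rw [Finset.sum_congr rfl (fun j _ => this j), ← Finset.sum_smul, C.hsum, ← h2 w, smul_smul,
      C.hei]

end modules

end Cfsg.Agent.Lib.Helper19.CY2
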