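import Mathlib
import Cfsg.Agent.Lib.Helper19.CY2.Defs

set_option autoImplicit false
set_option linter.unusedSectionVars false

universe u

namespace Cfsg.Agent.Lib.Helper19.CY2

open Cfsg.Agent.Lib.Helper80 Cfsg.Agent.Lib.Helper80.GA
open scoped BigOperators

variable {k : Type*} {G : Type*} [Field k] [Group G] [Fintype G]
variable {b : GA k G} {e : ℕ}

/-! ### KER : the kernel of `y` on `i kN` -/

theorem ker_comm (C : Cfg b e) (m : ℕ) : C.y ^ m * C.i = C.i * C.y ^ m := by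
  have h : Commute C.y C.i := by
    show C.y * C.i = C.i * C.y
    rw [C.hyi, C.hiy]
  exact h.pow_left m

theorem ker_mul_v (C : Cfg b e) (m a l : ℕ) :
    C.y ^ m * (C.i * C.y ^ a * C.s ^ l) = C.i * C.y ^ (m + a) * C.s ^ l := by
  rw [← mul_assoc, ← mul_assoc, ker_comm, mul_assoc C.i, ← pow_add]

theorem ker_pow_zero (C : Cfg b e) {m : ℕ} (hm : C.n ≤ m) : C.y ^ m = 0 := by
  obtain ⟨t, rfl⟩ := Nat.exists_eq_add_of_le hm
  rw [pow_add, C.hyn, zero_mul]

theorem ker_aux (C : Cfg b e) (c : Fin C.n × Fin e → k)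
    (h : C.y * ∑ q, c q • (C.i * C.y ^ (q.1 : ℕ) * C.s ^ (q.2 : ℕ)) = 0) :
    ∀ (a : ℕ) (ha : a < C.n), a + 1 < C.n → ∀ l, c (⟨a, ha⟩, l) = 0 := by
  intro a
  induction a using Nat.strong_induction_on with
  | _ a ih =>
    intro ha ha1
    have hn1 : C.n - 1 < C.n := by omega
    have key : ∑ l : Fin e, c (⟨a, ha⟩, l) • (C.i * C.y ^ (C.n - 1) * C.s ^ (l : ℕ)) = 0 := by
      have h1 : C.y ^ (C.n - 1 - a) * ∑ q, c q • (C.i * C.y ^ (q.1 : ℕ) * C.s ^ (q.2 : ℕ)) = 0 := by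
        have h2 : C.n - 1 - a = (C.n - 2 - a) + 1 := by omega
        rw [h2, pow_succ, mul_assoc, h, mul_zero]
      rw [Finset.mul_sum, Fintype.sum_prod_type, Finset.sum_eq_single (⟨a, ha⟩ : Fin C.n)] at h1
      · rw [← h1]
        refine Finset.sum_congr rfl (fun l _ => ?_)
        rw [mul_smul_comm, ker_mul_v]
        have h3 : C.n - 1 - a + a = C.n - 1 := by omega
        simp only [h3]
      · intro a' _ hne
        refine Finset.sum_eq_zero (fun l _ => ?_)
        rcases lt_or_gt_of_ne (fun h' => hne (Fin.ext h') : (a' : ℕ) ≠ a) with hlt | hgt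
        · have := ih a' hlt a'.2 (by omega) l
          have h4 : c (a', l) = 0 := this
          simp only [h4, zero_smul, mul_zero]
        · rw [mul_smul_comm, ker_mul_v, ker_pow_zero C (by simp only; omega), mul_zero, zero_mul,
            smul_zero]
      · intro h'
        exact absurd (Finset.mem_univ _) h'
    have hli : LinearIndependent k
        (fun l : Fin e => C.i * C.y ^ (C.n - 1) * C.s ^ (l : ℕ)) := by
      have := C.hind.comp (fun l : Fin e => ((⟨C.n - 1, hn1⟩ : Fin C.n), l))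
        (fun l l' hll => (Prod.ext_iff.1 hll).2)
      exact this
    exact Fintype.linearIndependent_iff.1 hli (fun l => c (⟨a, ha⟩, l)) key

theorem ker_span (C : Cfg b e) (x : GA k G)
    (hx : x ∈ Submodule.span k
      (Set.range fun q : Fin C.n × Fin e => C.i * C.y ^ (q.1 : ℕ) * C.s ^ (q.2 : ℕ)))
    (hy : C.y * x = 0) : ∃ μ : GA k G, x = C.y ^ (C.n - 1) * μ := by
  obtain ⟨c, rfl⟩ := (Submodule.mem_span_range_iff_exists_fun k).1 hx
  have h0 := ker_aux C c hy
  have hn1 : C.n - 1 < C.n := by have := C.hn; omega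
  refine ⟨∑ l : Fin e, c (⟨C.n - 1, hn1⟩, l) • (C.i * C.s ^ (l : ℕ)), ?_⟩
  rw [Fintype.sum_prod_type, Finset.sum_eq_single (⟨C.n - 1, hn1⟩ : Fin C.n), Finset.mul_sum]
  · refine Finset.sum_congr rfl (fun l _ => ?_)
    rw [mul_smul_comm, ← mul_assoc, ker_comm]
  · intro a' _ hne
    refine Finset.sum_eq_zero (fun l _ => ?_)
    have h1 : (a' : ℕ) ≠ C.n - 1 := fun h' => hne (Fin.ext h')
    have h2 : c (a', l) = 0 := h0 a' a'.2 (by have := a'.2; omega) l
    simp only [h2, zero_smul]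
  · intro h'
    exact absurd (Finset.mem_univ _) h'

/-- `r = i r ee = ∑_j (i r aa_j i) bb_j`; `λ_j = i r aa_j i = ∑ c_{a,l} i y^a s^l` (hspan) is killed by `y`;
by `hind` only `a = n-1` survives: `λ_j = y^(n-1) * μ_j`. -/
theorem ker_y (C : Cfg b e) (r : GA k G) (hr : SuppOn C.N r) (hir : C.i * r = r)
    (hyr : C.y * r = 0) : ∃ r' : GA k G, r = C.y ^ (C.n - 1) * r' := by
  have hree : r * C.ee = r := by
    rw [commute_of_suppOn_fixBy hr C.hee.2, ← hir, ← mul_assoc, C.hei]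
  have h1 : ∀ j, ∃ μ : GA k G, C.i * (r * C.aa j) * C.i = C.y ^ (C.n - 1) * μ := by
    intro j
    refine ker_span C _ (C.hspan _ (hr.mul (C.haa j))) ?_
    rw [← mul_assoc, ← mul_assoc, C.hyi, ← mul_assoc, hyr, zero_mul, zero_mul]
  choose μ hμ using h1
  refine ⟨∑ j, μ j * C.bb j, ?_⟩
  rw [Finset.mul_sum]
  conv_lhs => rw [← hree, ← C.hsum, Finset.mul_sum]
  refine Finset.sum_congr rfl (fun j _ => ?_)
  rw [← mul_assoc (C.y ^ (C.n - 1)), ← hμ j, ← mul_assoc C.i, hir, ← mul_assoc, ← mul_assoc]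

end Cfsg.Agent.Lib.Helper19.CY2
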