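import Mathlib
import Cfsg.Agent.Lib.Helper19.CY2.Defs
import Cfsg.Agent.Lib.Helper19.CY2.KER

set_option autoImplicit false
set_option linter.unusedSectionVars false

universe u

namespace Cfsg.Agent.Lib.Helper19.CY2

open Cfsg.Agent.Lib.Helper80 Cfsg.Agent.Lib.Helper80.GA
open scoped BigOperators

variable {k : Type*} {G : Type*} [Field k] [Group G] [Fintype G]
variable {b : GA k G} {e : ℕ}

section modules
variable {W : Type*} [AddCommGroup W] [Module (GA k G) W] [Module k W]
  [IsScalarTower k (GA k G) W]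
variable {W' : Type*} [AddCommGroup W'] [Module (GA k G) W'] [Module k W']
  [IsScalarTower k (GA k G) W']

/-! ### PROJ : projective maps kill the labels -/

/-- the coefficient element `r_f(v) = ∑_{g ∈ N} f (ρ (g⁻¹ v)) • of g` -/
noncomputable def projR (N : Subgroup G) (ρ : W →ₗ[k] W') (f : W' →ₗ[k] k) (v : W) : GA k G := by
  classical
  exact ∑ g ∈ Finset.univ.filter (fun g : G => g ∈ N),
    f (ρ ((of g⁻¹ : GA k G) • v)) • (of g : GA k G)

theorem projR_add (N : Subgroup G) (ρ : W →ₗ[k] W') (f : W' →ₗ[k] k) (v w : W) :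
    projR N ρ f (v + w) = projR N ρ f v + projR N ρ f w := by
  unfold projR
  rw [← Finset.sum_add_distrib]
  refine Finset.sum_congr rfl (fun g _ => ?_)
  rw [smul_add, map_add, map_add, add_smul]

theorem projR_smul (N : Subgroup G) (ρ : W →ₗ[k] W') (f : W' →ₗ[k] k) (c : k) (v : W) :
    projR N ρ f (c • v) = c • projR N ρ f v := by
  unfold projR
  rw [Finset.smul_sum]
  refine Finset.sum_congr rfl (fun g _ => ?_)
  rw [smul_comm, map_smul, map_smul, smul_eq_mul, mul_smul]

theorem projR_zero (N : Subgroup G) (ρ : W →ₗ[k] W') (f : W' →ₗ[k] k) :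
    projR N ρ f (0 : W) = 0 := by
  have := projR_smul N ρ f (0 : k) (0 : W)
  rwa [zero_smul, zero_smul] at this

theorem projR_sum (N : Subgroup G) (ρ : W →ₗ[k] W') (f : W' →ₗ[k] k) {ι : Type*}
    (s : Finset ι) (F : ι → W) :
    projR N ρ f (∑ x ∈ s, F x) = ∑ x ∈ s, projR N ρ f (F x) := by
  classical
  induction s using Finset.induction_on with
  | empty => simp [projR_zero]
  | insert a s ha ih => rw [Finset.sum_insert ha, Finset.sum_insert ha, projR_add, ih]

theorem projR_suppOn (N : Subgroup G) (ρ : W →ₗ[k] W') (f : W' →ₗ[k] k) (v : W) :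
    SuppOn N (projR N ρ f v) := by
  classical
  unfold projR
  refine SuppOn.sum _ _ (fun g hg => SuppOn.smul _ (SuppOn.of ?_))
  exact (Finset.mem_filter.1 hg).2

theorem projR_of_mul (N : Subgroup G) (ρ : W →ₗ[k] W') (f : W' →ₗ[k] k) (v : W) {h : G}
    (hh : h ∈ N) : (of h : GA k G) * projR N ρ f v = projR N ρ f ((of h : GA k G) • v) := by
  classical
  unfold projR
  rw [Finset.mul_sum]
  refine Finset.sum_nbij' (fun g => h * g) (fun g => h⁻¹ * g) ?_ ?_ ?_ ?_ ?_
  · intro g hg
    rw [Finset.mem_filter] at hg ⊢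
    exact ⟨Finset.mem_univ _, N.mul_mem hh hg.2⟩
  · intro g hg
    rw [Finset.mem_filter] at hg ⊢
    exact ⟨Finset.mem_univ _, N.mul_mem (N.inv_mem hh) hg.2⟩
  · intro g _
    simp
  · intro g _
    simp
  · intro g _
    rw [mul_smul_comm, of_mul_of, smul_smul, of_mul_of]
    congr 5
    group

theorem projR_mul (N : Subgroup G) (ρ : W →ₗ[k] W') (f : W' →ₗ[k] k) (v : W) {a : GA k G}
    (ha : SuppOn N a) : a * projR N ρ f v = projR N ρ f (a • v) := by
  have h1 : a * projR N ρ f v = ∑ x, a x • ((of x : GA k G) * projR N ρ f v) := by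
    conv_lhs => rw [eq_sum_of a, Finset.sum_mul]
    refine Finset.sum_congr rfl (fun x _ => ?_)
    rw [smul_mul_assoc]
  have h2 : a • v = ∑ x, a x • ((of x : GA k G) • v) := by
    conv_lhs => rw [eq_sum_of a, Finset.sum_smul]
    refine Finset.sum_congr rfl (fun x _ => ?_)
    rw [smul_assoc]
  rw [h1, h2, projR_sum]
  refine Finset.sum_congr rfl (fun x _ => ?_)
  rw [projR_smul]
  by_cases hx : x ∈ N
  · rw [projR_of_mul N ρ f v hx]
  · rw [ha x hx, zero_smul, zero_smul]

/-- Basis `t_l` of `W'` with dual `f_l`; `r_l := ∑_{g ∈ N} f_l (ρ (g⁻¹ v)) • of g`; `trS N ρ v = ∑_l r_l • t_l`;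
`a * r_l(v) = r_l(a • v)` for `a ∈ kN`, so `i r_l = r_l`, `y r_l = 0`; apply `ker_y`. -/
theorem proj [Module.Finite k W'] (C : Cfg b e) (ρ : W →ₗ[k] W') (v : W) (hiv : C.i • v = v)
    (hyv : C.y • v = 0) : ∃ w' : W', trS C.N ρ v = C.y ^ (C.n - 1) • w' := by
  classical
  let B := Module.finBasis k W'
  have h1 : ∀ l, ∃ r' : GA k G, projR C.N ρ (B.coord l) v = C.y ^ (C.n - 1) * r' := by
    intro l
    refine ker_y C _ (projR_suppOn _ _ _ _) ?_ ?_
    · rw [projR_mul C.N ρ _ v C.hiN, hiv]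
    · rw [projR_mul C.N ρ _ v C.hyN, hyv, projR_zero]
  choose r' hr' using h1
  refine ⟨∑ l, r' l • B l, ?_⟩
  have h2 : trS C.N ρ v = ∑ l, projR C.N ρ (B.coord l) v • B l := by
    unfold trS projR
    simp only [Finset.sum_smul]
    rw [Finset.sum_comm]
    refine Finset.sum_congr rfl (fun g _ => ?_)
    conv_lhs => rw [← B.sum_repr (ρ ((of g⁻¹ : GA k G) • v)), Finset.smul_sum]
    refine Finset.sum_congr rfl (fun l _ => ?_)
    rw [smul_assoc, smul_comm]
    rfl
  rw [h2, Finset.smul_sum]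
  refine Finset.sum_congr rfl (fun l _ => ?_)
  rw [hr' l, mul_smul]

end modules

end Cfsg.Agent.Lib.Helper19.CY2
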