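import Mathlib

set_option autoImplicit false
set_option linter.unusedSectionVars false

/-! Rung DC of the ladder CY2: `D`-`D` double coset representatives outside `N`. -/

namespace Cfsg.Agent.Lib.Helper19.CY2

variable {G : Type*} [Group G] [Fintype G]

/-- representatives of the `D`-`D` double cosets outside `N`; uniqueness of `u` by `ti`. -/
theorem dc {N D : Subgroup G} (hDN : D ≤ N)
    (ti : ∀ g, g ∉ N → ∀ u ∈ D, g⁻¹ * u * g ∈ D → u = 1) :
    ∃ H0 : Finset G, (∀ h ∈ H0, h ∉ N) ∧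
      ∀ g, g ∉ N → ∃! q : G × G, q.1 ∈ D ∧ q.2 ∈ H0 ∧ (q.1 * q.2)⁻¹ * g ∈ D := by
  classical
  let S : Setoid G :=
    { r := fun a b => ∃ u ∈ D, ∃ v ∈ D, b = u * a * v
      iseqv := ⟨fun a => ⟨1, D.one_mem, 1, D.one_mem, by simp⟩,
        fun {a b} ⟨u, hu, v, hv, h⟩ => ⟨u⁻¹, D.inv_mem hu, v⁻¹, D.inv_mem hv, by rw [h]; group⟩,
        fun {a b c} ⟨u, hu, v, hv, h⟩ ⟨u', hu', v', hv', h'⟩ =>
          ⟨u' * u, D.mul_mem hu' hu, v * v', D.mul_mem hv hv', by rw [h', h]; group⟩⟩ }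
  let rep : G → G := fun g => (Quotient.mk S g).out
  have hrep : ∀ g, S.r (rep g) g := fun g => Quotient.exact (Quotient.out_eq _)
  have hrep' : ∀ g g', S.r g g' → rep g = rep g' := fun g g' h => by
    simp only [rep]; rw [Quotient.sound h]
  have hH0 : ∀ h ∈ (Finset.univ.filter (fun g => g ∉ N)).image rep, h ∉ N := by
    intro h hh hN
    obtain ⟨g, hg, rfl⟩ := Finset.mem_image.1 hh
    obtain ⟨u, hu, v, hv, h⟩ := hrep g
    apply (Finset.mem_filter.1 hg).2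
    rw [h]
    exact N.mul_mem (N.mul_mem (hDN hu) hN) (hDN hv)
  refine ⟨(Finset.univ.filter (fun g => g ∉ N)).image rep, hH0, ?_⟩
  intro g hg
  obtain ⟨u, hu, v, hv, h⟩ := hrep g
  have hv' : v = (u * rep g)⁻¹ * g := by rw [eq_inv_mul_iff_mul_eq]; exact h.symm
  refine ⟨(u, rep g), ⟨hu, Finset.mem_image.2 ⟨g, by simp [hg], rfl⟩, ?_⟩, ?_⟩
  · show (u * rep g)⁻¹ * g ∈ D
    rw [← hv']; exact hv
  · rintro ⟨u', h'⟩ ⟨hu', hh', hq⟩
    simp only at hu' hh' hq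
    obtain ⟨g', hg', rfl⟩ := Finset.mem_image.1 hh'
    have h1 : S.r (rep g') g := ⟨u', hu', _, hq, by group⟩
    have h2 : S.r g' g := S.iseqv.trans (S.iseqv.symm (hrep g')) h1
    have h3 : rep g' = rep g := hrep' _ _ h2
    rw [h3] at hq ⊢
    have h4 : u⁻¹ * u' = 1 := by
      apply ti (rep g) (hH0 _ (Finset.mem_image.2 ⟨g, by simp [hg], rfl⟩)) _
        (D.mul_mem (D.inv_mem hu) hu')
      have : (rep g)⁻¹ * (u⁻¹ * u') * rep g = v * ((u' * rep g)⁻¹ * g)⁻¹ := by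
        rw [hv']; group
      rw [this]
      exact D.mul_mem hv (D.inv_mem hq)
    have h5 : u' = u := by
      rw [inv_mul_eq_one] at h4; exact h4.symm
    rw [h5]

end Cfsg.Agent.Lib.Helper19.CY2
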