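import Mathlib
import Cfsg.Agent.Lib.Helper19.CY2.Defs
import Cfsg.Agent.Lib.Helper19.CY2.DC

set_option autoImplicit false
set_option linter.unusedSectionVars false

/-! Rung TR of the ladder CY2: the trace from `N` to `G` and the TI property. -/

namespace Cfsg.Agent.Lib.Helper19.CY2

open Cfsg.Agent.Lib.Helper80 Cfsg.Agent.Lib.Helper80.GA
open scoped BigOperators

variable {k : Type*} {G : Type*} [Field k] [Group G] [Fintype G]
variable {b : GA k G} {e : ℕ}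

theorem tr_sum_transversal {ι M : Type*} [AddCommMonoid M] (D : Subgroup G) (s : Finset ι)
    (r : ι → G) (hr : ∀ g, ∃! i, i ∈ s ∧ (r i)⁻¹ * g ∈ D) (f : G → M)
    (hf : ∀ g, ∀ u ∈ D, f (g * u) = f g) (x : G) :
    ∑ i ∈ s, f (x * r i) = ∑ i ∈ s, f (r i) := by
  classical
  let π : G → ι := fun g => (hr g).choose
  have hπ : ∀ g, π g ∈ s ∧ (r (π g))⁻¹ * g ∈ D := fun g => (hr g).choose_spec.1
  have hπu : ∀ g i, i ∈ s → (r i)⁻¹ * g ∈ D → i = π g := fun g i h1 h2 =>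
    (hr g).choose_spec.2 i ⟨h1, h2⟩
  refine Finset.sum_nbij' (fun i => π (x * r i)) (fun j => π (x⁻¹ * r j)) ?_ ?_ ?_ ?_ ?_
  · intro i _; exact (hπ _).1
  · intro j _; exact (hπ _).1
  · intro i hi
    symm
    apply hπu _ _ hi
    have := D.inv_mem (hπ (x * r i)).2
    convert this using 1; group
  · intro i hi
    symm
    apply hπu _ _ hi
    have := D.inv_mem (hπ (x⁻¹ * r i)).2
    convert this using 1; group
  · intro i _
    have := hf (r (π (x * r i))) _ (hπ (x * r i)).2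
    rw [← this]; congr 1; group

theorem tr_sum_N {M : Type*} [AddCommMonoid M] [DecidableEq G] {N D : Subgroup G}
    [DecidablePred (· ∈ N)] [DecidablePred (· ∈ D)] (hDN : D ≤ N)
    (TN : Finset G) (hTN : ∀ t ∈ TN, t ∈ N) (hTN' : ∀ g ∈ N, ∃! t, t ∈ TN ∧ t⁻¹ * g ∈ D)
    (F : G → M) :
    ∑ g ∈ Finset.univ.filter (fun g : G => g ∈ N), F g
      = ∑ t ∈ TN, ∑ u ∈ Finset.univ.filter (fun g : G => g ∈ D), F (t * u) := by
  rw [← Finset.sum_product']
  symm
  refine Finset.sum_bij (fun q _ => q.1 * q.2) ?_ ?_ ?_ ?_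
  · rintro ⟨t, u⟩ hq
    simp only [Finset.mem_product, Finset.mem_filter, Finset.mem_univ, true_and] at hq ⊢
    exact N.mul_mem (hTN t hq.1) (hDN hq.2)
  · rintro ⟨t, u⟩ hq ⟨t', u'⟩ hq' h
    simp only [Finset.mem_product, Finset.mem_filter, Finset.mem_univ, true_and] at hq hq' h
    have hg : t * u ∈ N := N.mul_mem (hTN t hq.1) (hDN hq.2)
    have h1 : t = t' := (hTN' _ hg).unique ⟨hq.1, by simpa using hq.2⟩
      ⟨hq'.1, by rw [h]; simpa using hq'.2⟩
    subst h1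
    have h2 : u = u' := mul_left_cancel h
    rw [h2]
  · intro g hg
    simp only [Finset.mem_filter, Finset.mem_univ, true_and] at hg
    obtain ⟨t, ⟨ht, htg⟩, _⟩ := hTN' g hg
    refine ⟨(t, t⁻¹ * g), ?_, by simp⟩
    simp only [Finset.mem_product, Finset.mem_filter, Finset.mem_univ, true_and]
    exact ⟨ht, htg⟩
  · intro q _; rfl

section modules
variable {W : Type*} [AddCommGroup W] [Module (GA k G) W] [Module k W]
  [IsScalarTower k (GA k G) W]
variable {W' : Type*} [AddCommGroup W'] [Module (GA k G) W'] [Module k W']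
  [IsScalarTower k (GA k G) W']

/-- `w ↦ x φ (x⁻¹ w)` -/
noncomputable def tr_cj (x : G) (φ : W →ₗ[k] W') : W →ₗ[k] W' :=
  (Algebra.lsmul k k W' (of x : GA k G)) ∘ₗ φ ∘ₗ (Algebra.lsmul k k W (of x⁻¹ : GA k G))

theorem tr_cj_apply (x : G) (φ : W →ₗ[k] W') (w : W) :
    tr_cj x φ w = (of x : GA k G) • φ ((of x⁻¹ : GA k G) • w) := rfl

theorem tr_cj_mul (D : Subgroup G) (φ : W →ₗ[k] W')
    (hφ : ∀ u ∈ D, ∀ w, φ ((of u : GA k G) • w) = (of u : GA k G) • φ w) (w : W) (x : G) (u : G)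
    (hu : u ∈ D) : tr_cj (x * u) φ w = tr_cj x φ w := by
  rw [tr_cj_apply, tr_cj_apply, mul_inv_rev, ← of_mul_of, ← of_mul_of, mul_smul, mul_smul,
    hφ _ (D.inv_mem hu), smul_smul (of u), of_mul_of_inv, one_smul]

theorem tr (C : Cfg b e) (σ : W →ₗ[k] W')
    (hσ : ∀ g ∈ C.N, ∀ w, σ ((of g : GA k G) • w) = (of g : GA k G) • σ w)
    (hσe : ∀ w, C.ee • σ w = σ w) :
    ∃ (τ ρ : W →ₗ[k] W'), (∀ (g : G) (w : W), τ ((of g : GA k G) • w) = (of g : GA k G) • τ w) ∧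
      ∀ w, C.ee • (τ w - σ w) = trS C.N ρ w := by
  classical
  obtain ⟨H0, hH0, hdc⟩ := dc C.hDN C.ti
  set Df : Finset G := Finset.univ.filter (fun g : G => g ∈ C.D) with hDf
  have hmemD : ∀ u, u ∈ Df ↔ u ∈ C.D := fun u => by simp [hDf]
  let φ : W →ₗ[k] W' := (Algebra.lsmul k k W' C.c) ∘ₗ σ
  have hφa : ∀ w, φ w = C.c • σ w := fun w => rfl
  have hcu : ∀ u ∈ C.D, (of u : GA k G) * C.c = C.c * of u := fun u hu =>
    (cj_eq_iff_commute u C.c).1 (C.hc u hu)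
  have hφ : ∀ u ∈ C.D, ∀ w, φ ((of u : GA k G) • w) = (of u : GA k G) • φ w := by
    intro u hu w
    rw [hφa, hφa, hσ u (C.hDN hu), smul_smul, smul_smul, hcu u hu]
  let s : Finset (G ⊕ (G × G)) := C.TN.disjSum (Df ×ˢ H0)
  let r : G ⊕ (G × G) → G := Sum.elim id (fun q => q.1 * q.2)
  have hr : ∀ g, ∃! i, i ∈ s ∧ (r i)⁻¹ * g ∈ C.D := by
    intro g
    by_cases hg : g ∈ C.N
    · obtain ⟨t, ⟨ht, htg⟩, htu⟩ := C.hTN' g hg
      refine ⟨Sum.inl t, ⟨by simp [s, ht], htg⟩, ?_⟩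
      rintro (t' | q) ⟨h1, h2⟩
      · rw [htu t' ⟨by simpa [s] using h1, h2⟩]
      · exfalso
        simp only [s, Finset.inr_mem_disjSum, Finset.mem_product] at h1
        apply hH0 _ h1.2
        have h3 : (q.1 * q.2)⁻¹ * g ∈ C.N := C.hDN h2
        have h4 : q.1 * q.2 ∈ C.N := by
          have := C.N.mul_mem hg (C.N.inv_mem h3)
          simpa using this
        have h5 := C.N.mul_mem (C.N.inv_mem (C.hDN ((hmemD _).1 h1.1))) h4
        simpa using h5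
    · obtain ⟨q, ⟨hq1, hq2, hq3⟩, hqu⟩ := hdc g hg
      refine ⟨Sum.inr q, ⟨by simp [s, hq2, (hmemD _).2 hq1], hq3⟩, ?_⟩
      rintro (t' | q') ⟨h1, h2⟩
      · exfalso
        apply hg
        have h3 : t' ∈ C.N := C.hTN t' (by simpa [s] using h1)
        have h4 : t'⁻¹ * g ∈ C.N := C.hDN h2
        have := C.N.mul_mem h3 h4
        simpa using this
      · simp only [s, Finset.inr_mem_disjSum, Finset.mem_product] at h1
        rw [hqu q' ⟨(hmemD _).1 h1.1, h1.2, h2⟩]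
  let τ : W →ₗ[k] W' := ∑ i ∈ s, tr_cj (r i) φ
  let ρ₀ : W →ₗ[k] W' := ∑ h ∈ H0, tr_cj h φ
  let ρ : W →ₗ[k] W' := (Algebra.lsmul k k W' C.c) ∘ₗ ρ₀
  have hτa : ∀ w, τ w = ∑ i ∈ s, tr_cj (r i) φ w := fun w => by
    simp only [τ, LinearMap.sum_apply]
  have hρ₀a : ∀ w, ρ₀ w = ∑ h ∈ H0, tr_cj h φ w := fun w => by
    simp only [ρ₀, LinearMap.sum_apply]
  have hρa : ∀ w, ρ w = C.c • ρ₀ w := fun w => rfl
  have hτG : ∀ (g : G) (w : W), τ ((of g : GA k G) • w) = (of g : GA k G) • τ w := by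
    intro g w
    rw [hτa, hτa, ← tr_sum_transversal C.D s r hr (fun x => tr_cj x φ w)
      (fun x u hu => tr_cj_mul C.D φ hφ w x u hu) g⁻¹, Finset.smul_sum]
    refine Finset.sum_congr rfl (fun i _ => ?_)
    rw [tr_cj_apply, tr_cj_apply, smul_smul, smul_smul, of_mul_of, of_mul_of]
    congr 2
    · group
    · congr 2; group
  have hτs : ∀ w, τ w - σ w = ∑ u ∈ Df, (of u : GA k G) • ρ₀ ((of u⁻¹ : GA k G) • w) := by
    intro w
    rw [hτa, Finset.sum_disjSum]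
    have h1 : ∑ t ∈ C.TN, tr_cj (r (Sum.inl t)) φ w = σ w := by
      rw [← hσe w, ← C.htr, Finset.sum_smul]
      refine Finset.sum_congr rfl (fun t ht => ?_)
      show tr_cj t φ w = _
      rw [tr_cj_apply, hφa, hσ _ (C.N.inv_mem (C.hTN t ht)), smul_smul, smul_smul, mul_assoc]
    rw [h1, add_sub_cancel_left, Finset.sum_product]
    refine Finset.sum_congr rfl (fun u _ => ?_)
    rw [hρ₀a, Finset.smul_sum]
    refine Finset.sum_congr rfl (fun h _ => ?_)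
    show tr_cj (u * h) φ w = _
    rw [tr_cj_apply, tr_cj_apply, smul_smul, smul_smul, of_mul_of, of_mul_of, mul_inv_rev]
  refine ⟨τ, ρ, hτG, ?_⟩
  intro w
  have hδ : ∀ g ∈ C.N, ∀ w, (of g : GA k G) • (τ w - σ w)
      = τ ((of g : GA k G) • w) - σ ((of g : GA k G) • w) := by
    intro g hg w
    rw [smul_sub, hτG, hσ g hg]
  have htrS : trS C.N ρ w = ∑ g ∈ Finset.univ.filter (fun g : G => g ∈ C.N),
      (of g : GA k G) • ρ ((of g⁻¹ : GA k G) • w) := by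
    unfold trS
    congr
  rw [htrS, tr_sum_N C.hDN C.TN C.hTN C.hTN', ← C.htr, Finset.sum_smul]
  refine Finset.sum_congr rfl (fun t ht => ?_)
  rw [mul_smul, hδ _ (C.N.inv_mem (C.hTN t ht)), hτs, mul_smul, Finset.smul_sum, Finset.smul_sum]
  refine Finset.sum_congr rfl (fun u hu => ?_)
  rw [hρa, smul_smul C.c, ← hcu u ((hmemD u).1 hu), smul_smul, smul_smul, smul_smul, of_mul_of,
    mul_inv_rev, ← mul_assoc, of_mul_of]

end modules

end Cfsg.Agent.Lib.Helper19.CY2
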