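import Mathlib
import Cfsg.Agent.Lib.Helper19.CY2.Defs
import Cfsg.Agent.Lib.Helper19.CY2.LAP
import Cfsg.Agent.Lib.Helper19.CY2.MOR
import Cfsg.Agent.Lib.Helper19.CY2.TR
import Cfsg.Agent.Lib.Helper19.CY2.PROJ
import Cfsg.Agent.Lib.Helper80.MTMain
import Cfsg.Agent.Lib.Helper80.MTRank

set_option autoImplicit false
set_option linter.unusedSectionVars false

universe u

/-! # Ladder CY2, rung UNIQ : a simple module has at most one label -/

namespace Cfsg.Agent.Lib.Helper19.CY2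

open Cfsg.Agent.Lib.Helper80 Cfsg.Agent.Lib.Helper80.GA
open scoped BigOperators

variable {k : Type*} {G : Type*} [Field k] [Group G] [Fintype G]
variable {b : GA k G} {e : ℕ}

variable {W : Type*} [AddCommGroup W] [Module (GA k G) W] [Module k W]
  [IsScalarTower k (GA k G) W]
variable {W' : Type*} [AddCommGroup W'] [Module (GA k G) W'] [Module k W']
  [IsScalarTower k (GA k G) W']

theorem uniq [IsAlgClosed k] [Module.Finite k W] [IsSimpleModule (GA k G) W] (C : Cfg b e)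
    {ω ω₂ : k} (hω : ω ^ e = 1) (hω₂ : ω₂ ^ e = 1) (h1 : Lab W C ω) (h2 : Lab W C ω₂) :
    ω = ω₂ := by
  by_contra hne
  obtain ⟨v, hiv, hyv, hsv, hnot⟩ := h1
  obtain ⟨v₂, hiv₂, hyv₂, hsv₂, hnot₂⟩ := h2
  obtain ⟨π, p1, p2, p3, p4, p5, p6⟩ := lap C v ω hω hiv hyv hsv hnot
  obtain ⟨σ, s1, s2, s3⟩ := mor C π p1 p2 p3 p4
  obtain ⟨τ, ρ, t1, t2⟩ := tr C σ s1 s2
  obtain ⟨c, hc⟩ := schur τ t1
  have hev : ∀ w : W, C.i • w = w → C.ee • w = w := by
    intro w hw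
    rw [← hw, smul_smul, C.hei]
  -- at `v`
  obtain ⟨w1, hw1⟩ := proj C ρ v hiv hyv
  have e1 : C.ee • (τ v - σ v) = (c - 1) • v := by
    rw [hc, s3 v hiv, p5, sub_smul, one_smul, smul_sub, smul_comm, hev v hiv]
  rw [← t2, e1] at hw1
  have hc1 : c = 1 := by
    by_contra h
    apply hnot
    refine ⟨(c - 1)⁻¹ • w1, ?_⟩
    rw [smul_comm, ← hw1, smul_smul, inv_mul_cancel₀ (sub_ne_zero.2 h), one_smul]
  obtain ⟨w2, hw2⟩ := proj C ρ v₂ hiv₂ hyv₂
  rw [← t2, hc, s3 v₂ hiv₂, p6 v₂ ω₂ hω₂ (fun h => hne h.symm) hiv₂ hyv₂ hsv₂, sub_zero, hc1, one_smul,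
    hev v₂ hiv₂] at hw2
  exact hnot₂ ⟨w2, hw2⟩

theorem lab_congr (C : Cfg b e) {ω : k} (f : W ≃ₗ[GA k G] W') (h : Lab W C ω) : Lab W' C ω := by
  obtain ⟨v, h1, h2, h3, h4⟩ := h
  have hk : ∀ (c : k) (w : W), f (c • w) = c • f w := by
    intro c w
    have h : c • w = (c • (1 : GA k G)) • w := by rw [smul_assoc, one_smul]
    rw [h, map_smul, smul_assoc, one_smul]
  refine ⟨f v, by rw [← map_smul, h1], by rw [← map_smul, h2, map_zero],
    by rw [← map_smul, h3, hk], ?_⟩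
  rintro ⟨w, hw⟩
  apply h4
  refine ⟨f.symm w, ?_⟩
  rw [← map_smul, ← hw, LinearEquiv.symm_apply_apply]

end Cfsg.Agent.Lib.Helper19.CY2
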