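import Mathlib
import Cfsg.Agent.Lib.Helper19.CY2.UNIQ
import Cfsg.Agent.Lib.Helper19.CY2.EXI
import Cfsg.Agent.Lib.Helper19.CY2.SIMP
import Cfsg.Agent.Lib.Helper19.CY2.ROOTS
import Cfsg.Agent.Lib.Helper80.MTMain
import Cfsg.Agent.Lib.Helper80.MTRank
import Cfsg.Agent.Lib.Helper80.MTAlgClosed

set_option autoImplicit false
set_option linter.unusedSectionVars false

universe u

/-! # Ladder CY2: a configuration gives `e` simple modules, hence `e ≤ l(B)` -/

namespace Cfsg.Agent.Lib.Helper19.CY2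

open Cfsg Cfsg.Agent.Lib.Helper80 Cfsg.Agent.Lib.Helper80.GA
open scoped BigOperators

theorem exists_traces {k : Type} [Field k] [IsAlgClosed k] {G : Type u} [Group G] [Fintype G]
    {p : ℕ} [Fact p.Prime] [CharP k p] {b : GA k G} {e : ℕ} (C : Cfg b e) :
    ∃ t : Fin e → (G → k), LinearIndependent k t ∧ ∀ i,
      (∀ x g, t i (x * g * x⁻¹) = t i g) ∧
      (∀ (u s : G) (n : ℕ), Commute u s → orderOf u = p ^ n → t i (u * s) = t i s) ∧
      (∀ g, ∑ h, b h * t i (h * g) = t i g) := by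
  classical
  obtain ⟨z, hzinj, hz⟩ := roots (k := k) C.he C.hek
  have hex : ∀ j : Fin e, ∃ S : SMod k G, (∀ w : S.carrier, b • w = w) ∧ Lab S.carrier C (z j) := by
    intro j
    obtain ⟨U, hU1, hU2⟩ := exi C (hz j)
    have hfin : Module.Finite k U :=
      Module.Finite.of_injective (U.subtype.restrictScalars k) Subtype.val_injective
    obtain ⟨S, i1, i2, i3, i4, i5, i6, hS1, hS2⟩ := simp_lab C (hz j) _ U le_rfl hU1 hU2
    exact ⟨⟨S⟩, hS1, hS2⟩
  choose S hS1 hS2 using hex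
  refine ⟨fun i => trc (S i).carrier, ?_, fun i => ⟨?_, ?_, ?_⟩⟩
  · apply linearIndependent_trc S
    intro i j hij
    refine ⟨fun f => ?_⟩
    exact hij (hzinj (uniq C (hz i) (hz j) (lab_congr C f (hS2 i)) (hS2 j)))
  · intro x g; exact trc_conj x g
  · intro u s n hc hu; exact trc_mul_of_pelt hc hu
  · intro g
    exact sum_mul_trc (hS1 i) g

theorem le_blockRank_of_cfg {p : ℕ} {M : Ideal AlgInt} {G : Type u} [Group G] [Fintype G]
    (hM : IsPModular p M) {B : Set (IrrCharacter G)} (hB : IsPBlock M B) {e : ℕ}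
    (C : Cfg (blkR hM B) e) : e ≤ blockRank p B := by
  haveI : Fact p.Prime := ⟨hM.1⟩
  obtain ⟨t, ht, h⟩ := exists_traces (p := p) C
  have := card_le_blockRank hM hB t ht (fun i => (h i).1) (fun i => (h i).2.1) (fun i => (h i).2.2)
  simpa using this

end Cfsg.Agent.Lib.Helper19.CY2
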