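import Mathlib
import Cfsg.Agent.Lib.Helper80.GAStab
import Cfsg.Agent.Lib.Helper5.InertSetup

set_option autoImplicit false
set_option linter.unusedSectionVars false

/-! # Ladder CY2, rung TT: the inertial group of S4695 is `stabP` -/

namespace Cfsg.Agent.Lib.Helper19.CY2

open Cfsg Cfsg.Agent.Lib.Helper80 Cfsg.Agent.Lib.Helper80.GA Cfsg.Agent.Lib.Helper81
  Cfsg.Agent.Lib.Helper20

variable {p : ℕ} [Fact p.Prime] {M : Ideal AlgInt} (hM : IsPModular p M)
  {G : Type*} [Group G] [Fintype G]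

theorem tt {D : Subgroup G} {b : Set (IrrCharacter (Cn D))} (hb : IsPBlock M b) {T : Subgroup G}
    (hT : ∀ g : G, g ∈ T ↔ (g ∈ Subgroup.normalizer (D : Set G) ∧ ∀ θ ∈ b,
      ∀ θ' : IrrCharacter (Subgroup.centralizer (D : Set G)),
      (∀ h h' : Subgroup.centralizer (D : Set G), (h' : G) = g * h * g⁻¹ →
        (θ' : Subgroup.centralizer (D : Set G) → ℂ) h' =
          (θ : Subgroup.centralizer (D : Set G) → ℂ) h) → θ' ∈ b)) :
    T = stabP D (bl hM (Cn D) b) := by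
  ext g
  rw [hT g, mem_stabP]
  constructor
  · rintro ⟨h1, h2⟩
    refine ⟨h1, ?_⟩
    have hK := mem_iff_of_mem_normalizer (Nn_le_normalizer_Cn D h1)
    have hblk := isPBlock_cjSet (M := M) hK hb
    rw [← bl_cjSet hM hK]
    have hsub : cjSet (Cn D) (Cn D) g b ⊆ b := by
      rintro ξ' ⟨ξ, hξ, hrel⟩
      exact h2 ξ hξ ξ' hrel
    obtain ⟨ξ', hξ'⟩ := isPBlock_nonempty hM hblk
    have : cjSet (Cn D) (Cn D) g b = b := by
      rw [isPBlock_eq_blockOf hM hblk hξ', isPBlock_eq_blockOf hM hb (hsub hξ')]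
    rw [this]
  · rintro ⟨h1, h2⟩
    refine ⟨h1, fun θ hθ θ' hrel => ?_⟩
    have hK := mem_iff_of_mem_normalizer (Nn_le_normalizer_Cn D h1)
    have e1 : bl hM (Cn D) (cjSet (Cn D) (Cn D) g b) = bl hM (Cn D) b := by
      rw [bl_cjSet hM hK, h2]
    have e2 := bl_injective hM (Cn D) (isPBlock_cjSet hK hb) hb e1
    rw [← e2]
    exact ⟨θ, hθ, hrel⟩

end Cfsg.Agent.Lib.Helper19.CY2
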